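import Cfsg.Agent.Lib.Orth.CharTwo

/-!
Quadratic forms over the field with two elements polarizing to a fixed alternating form.
-/

set_option autoImplicit false

namespace Cfsg.Lib.Orth

open QuadraticMap Module

variable {V : Type*} [AddCommGroup V] [Module (ZMod 2) V] {Q : QuadraticForm (ZMod 2) V}

theorem exists_form_of_polarizes {q : V → ZMod 2}
    (hq : ∀ u v, q (u + v) = q u + q v + (Q (u + v) - Q u - Q v)) :
    ∃ Q' : QuadraticForm (ZMod 2) V, ⇑Q' = q ∧ ∀ u v, polar Q' u v = polar Q u v := by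
  have h1 : ∀ u v, polar q u v = polar Q u v := fun u v => by simp only [polar, hq]; ring
  have h0 : q 0 = 0 := by have := hq 0 0; simpa using this
  refine ⟨QuadraticMap.ofPolar q (fun a x => ?_) (fun x x' y => ?_) fun a x y => ?_, rfl, h1⟩
  · have : ∀ a : ZMod 2, a = 0 ∨ a = 1 := by decide
    rcases this a with rfl | rfl <;> simp [h0]
  · simp only [h1, polar_add_left]
  · simp only [h1, polar_smul_left]

theorem translate_apply_two (w v : V) : translate Q w v = Q v + (Q (v + w) - Q v - Q w) := by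
  have : ∀ a : ZMod 2, a ^ 2 = a := by decide
  rw [translate_apply, this, polar_comm]; rfl

theorem polarizes_iff [FiniteDimensional (ZMod 2) V] (hQ : ND Q) {q : V → ZMod 2} :
    (∀ u v, q (u + v) = q u + q v + (Q (u + v) - Q u - Q v)) ↔ ∃ w, q = translate Q w := by
  constructor
  · intro hq
    obtain ⟨Q', rfl, h⟩ := exists_form_of_polarizes hq
    obtain ⟨w, hw⟩ := exists_eq_add_polar_sq hQ rfl h
    exact ⟨w, funext fun v => by rw [hw, translate_apply]⟩
  · rintro ⟨w, rfl⟩ u v
    rw [Q_add, polar_translate rfl]; rfl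

theorem translate_injective (hQ : ND Q) : Function.Injective fun w => ⇑(translate Q w) :=
  fun w w' h => hQ.ext fun y => sq_inj_of_two rfl (by
    simpa [translate_apply] using congrFun h y)

theorem equivalent_translate_iff_two [FiniteDimensional (ZMod 2) V] (hQ : ND Q) {w : V} :
    Q.Equivalent (translate Q w) ↔ Q w = 0 := by
  rw [equivalent_translate_iff hQ rfl]
  generalize Q w = a
  revert a; decide

theorem card_polarizes [FiniteDimensional (ZMod 2) V] (hQ : ND Q) (P : (V → ZMod 2) → Prop) :
    Nat.card {q : V → ZMod 2 // (∀ u v, q (u + v) = q u + q v + (Q (u + v) - Q u - Q v)) ∧ P q} =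
      Nat.card {w // P (translate Q w)} :=
  (Nat.card_eq_of_bijective (fun w : {w // P (translate Q w)} =>
    (⟨translate Q w.1, (polarizes_iff hQ).2 ⟨_, rfl⟩, w.2⟩ :
      {q : V → ZMod 2 // (∀ u v, q (u + v) = q u + q v + (Q (u + v) - Q u - Q v)) ∧ P q}))
    ⟨fun _ _ h => Subtype.ext (translate_injective hQ (congrArg Subtype.val h)),
      fun ⟨q, hq, hP⟩ => by
        obtain ⟨w, rfl⟩ := (polarizes_iff hQ).1 hq
        exact ⟨⟨w, hP⟩, rfl⟩⟩).symm

end Cfsg.Lib.Orth
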