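import Cfsg.Agent.Lib.Orth.Elus3

/-!
# Elements of prime order of `PΩ` fixing subspaces: arithmetic form
-/

set_option autoImplicit false

namespace Cfsg.Lib.Orth

open Module Polynomial Cfsg.Lib.GLC Cfsg.Lib.Symp
open LinearMap hiding polar zero_apply add_apply sub_apply
open QuadraticMap (polar polarBilin polar_comm polar_sub_left polar_sub_right polar_prod)

universe w

variable {F : Type w} {V W : Type*} [Field F] [AddCommGroup V] [Module F V] [AddCommGroup W] [Module F W]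
  {Q : QuadraticForm F V} {Q' : QuadraticForm F W} {f : End F V} {g : End F W} {m r : ℕ} {δ : ℤˣ}
variable [Finite F] [Module.Finite F V] [Module.Finite F W]

section final

variable {i c n p q : ℕ}

theorem units_pow_eq_one {u : ℤˣ} {k : ℕ} : u ^ k = 1 ↔ k % 2 = 0 ∨ u = 1 := by
  rcases Int.units_eq_one_or u with rfl | rfl
  · simp
  · rw [neg_one_pow_eq_one_iff_even (by decide), Nat.even_iff, or_iff_left (by decide)]

theorem eq_neg_one_pow_iff {ε : ℤˣ} {a : ℕ} :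
    ε = (-1) ^ ((i + 1) * a) ↔ (ε = 1 ↔ i % 2 = 1 ∨ a % 2 = 0) := by
  rw [show ∀ u v : ℤˣ, u = v ↔ (u = 1 ↔ v = 1) by decide, units_pow_eq_one, ← Nat.even_iff, Nat.even_mul,
    Nat.even_add_one, or_iff_left (by decide), Nat.not_even_iff_odd, Nat.odd_iff, Nat.even_iff]

theorem divmod_facts (hc : 0 < c) (h : m ≤ n) : (m % c ≤ n % c ∧ (n - m) / c + m / c = n / c ∧
    (n - m) % c + m % c = n % c ∨ n % c < m % c ∧ (n - m) / c + m / c + 1 = n / c ∧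
      (n - m) % c + m % c = n % c + c) ∧ (m % c = n % c → (n + m - 2 * (n % c)) / c = n / c + m / c) := by
  obtain ⟨n, rfl⟩ := Nat.exists_eq_add_of_le' h
  have h1 := Nat.mod_lt m hc
  have h2 := Nat.mod_lt n hc
  have h3 := Nat.div_add_mod m c
  refine ⟨?_, fun e => ?_⟩
  · rw [Nat.add_sub_cancel, Nat.add_div hc]
    split_ifs with h4
    · have := Nat.add_mod_add_of_le_add_mod h4; omega
    · have := Nat.add_mod_of_add_mod_lt (not_le.1 h4); omega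
  · have h4 := Nat.div_add_mod (n + m) c
    rw [show n + m + m - _ = c * ((n + m) / c + m / c) by rw [mul_add]; omega, Nat.mul_div_cancel_left _ hc]

theorem nfit_aux {a b u k l v c : ℕ} {G₀ G₁ G₂ G₃ : Prop} [Decidable G₀] [Decidable G₁] [Decidable G₂]
    (h1 : l ≤ k ∧ u + b = a ∧ v + l = k ∨ k < l ∧ u + b + 1 = a ∧ v + l = k + c) (h2 : l = 0 → 0 < b)
    (h3 : v = 0 → 0 < u) (h4 : l < c) (h5 : l = k → (G₃ ↔ G₂))
    (h6 : (if v = 0 ∧ ¬ G₂ then u - 1 else u) < if k = 0 ∧ ¬ G₀ then a - 1 else a) :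
    (if k = 0 ∧ ¬ G₀ then a - 1 else a) ≤ (if l = 0 ∧ ¬ G₁ then b - 1 else b) +
      (if v = 0 ∧ ¬ G₂ then u - 1 else u) ↔ k = 0 ∧ ¬ G₀ ∧ (l = 0 → G₁ ∨ G₃) ∨
        0 < b ∧ l ≤ k ∧ (l = 0 → G₁) ∧ (l = k → G₃) := by
  grind (splits := 30)

theorem nfit_le_add_iff (hc : 0 < c) (h0 : 0 < m) (h : m < n) {ε δ' : ℤˣ}
    (h2 : nfit i c (n - m) δ' < nfit i c n ε) : nfit i c n ε ≤ nfit i c m δ + nfit i c (n - m) δ' ↔
      n % c = 0 ∧ ¬ (ε = 1 ↔ i % 2 = 1 ∨ n / c % 2 = 0) ∧ (m % c = 0 → (δ = 1 ↔ i % 2 = 1 ∨ m / c % 2 = 0) ∨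
        (δ' = 1 ↔ i % 2 = 1 ∨ (n / c + m / c) % 2 = 0)) ∨ c ≤ m ∧ m % c ≤ n % c ∧
      (m % c = 0 → (δ = 1 ↔ i % 2 = 1 ∨ m / c % 2 = 0)) ∧
      (m % c = n % c → (δ' = 1 ↔ i % 2 = 1 ∨ (n / c + m / c) % 2 = 0)) := by
  have h3 := (divmod_facts hc h.le).1
  have h4 : ∀ x, 0 < x → x % c = 0 → 0 < x / c := fun x h1 h2 =>
    Nat.div_pos (Nat.le_of_dvd h1 (Nat.dvd_of_mod_eq_zero h2)) hc
  simp only [nfit, ne_eq, eq_neg_one_pow_iff, show c ≤ m ↔ 0 < m / c by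
    rw [Nat.div_pos_iff, and_iff_right hc]] at h2 ⊢
  refine nfit_aux h3 (h4 m h0) (h4 _ (by omega)) (Nat.mod_lt m hc) (fun e => iff_congr .rfl
    (or_congr_right ?_)) h2
  clear h2; omega

variable [Fintype F] [Fact p.Prime] [CharP F p]

omit [Finite F] in
theorem signs_of_ne_two (hq : Fintype.card F = q) (hp : p ≠ 2) : (2 : F) ≠ 0 ∧ q % 2 = 1 ∧
    (sqsign (-1 : F) = 1 ↔ q % 4 = 1) ∧ (sqsign (2 : F) = 1 ↔ q % 8 = 1 ∨ q % 8 = 7) := by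
  have h2 : (2 : F) ≠ 0 := mt (CharP.cast_eq_zero_iff F p 2).1
    (mt (Nat.prime_dvd_prime_iff_eq Fact.out Nat.prime_two).1 hp)
  have h3 := Nat.odd_iff.1 (hq ▸ odd_card_iff.2 h2)
  exact ⟨h2, h3, by rw [sqsign_neg_one, hq]; omega, by
    rw [sqsign_eq_one_iff, FiniteField.isSquare_two_iff, hq]; omega⟩

theorem el_nd_iff (hq : Fintype.card F = q) (hQ : ND Q) (hV : finrank F V = n) (h5 : 5 ≤ n) (h0 : 0 < m)
    (hm : m < n) (ho : Odd m → p ≠ 2) (hr : r.Prime) (hd : r ∣ Nat.card {Y : Submodule F V //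
      finrank F Y = m ∧ ND (Q.restrict Y) ∧ qsg (Q.restrict Y) = δ}) (hi : i = orderOf (q : ZMod r))
    (hc : c = if Even i then i else 2 * i) {ε : ℤˣ} (hε : qsg Q = ε) {A : Prop}
    (h1 : r = 2 → p = 2 → q % 2 = 0 → (wi n ε / 2 ≤ wi m δ / 2 + wi (n - m) (ε * δ) / 2 ↔ A))
    (h2 : r = 2 → p ≠ 2 → q % 2 = 1 → ((∀ d, n = 2 * d → (ε = 1 ↔ d % 2 = 0 ∨ q % 4 = 1) →
      (d % 2 = 0 ∨ q % 8 = 1 ∨ q % 8 = 7) → m % 2 = 0 ∧ (δ = 1 ↔ m % 4 = 0 ∨ q % 4 = 1)) ↔ A))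
    (h3 : 2 < r → r = p → (2 : F) ≠ 0 → (El Q p (InvND Q · m δ) ↔ A))
    (h4 : 2 < r → r ≠ p → (i % 2 = 0 ∧ c = i ∨ i % 2 = 1 ∧ c = 2 * i) → n % c % 2 = n % 2 ∧ m % c % 2 = m % 2 ∧
      (m % c = 0 → c ≤ m) ∧ (m % c = n % c → (n + m - 2 * (n % c)) / c = n / c + m / c) →
      ∀ δ', (m % 2 = 0 → δ' = ε * δ) →
      (n % c = 0 ∧ ¬ (ε = 1 ↔ i % 2 = 1 ∨ n / c % 2 = 0) ∧ (m % c = 0 → (δ = 1 ↔ i % 2 = 1 ∨ m / c % 2 = 0) ∨
        (δ' = 1 ↔ i % 2 = 1 ∨ (n / c + m / c) % 2 = 0)) ∨ c ≤ m ∧ m % c ≤ n % c ∧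
      (m % c = 0 → (δ = 1 ↔ i % 2 = 1 ∨ m / c % 2 = 0)) ∧
      (m % c = n % c → (δ' = 1 ↔ i % 2 = 1 ∨ (n / c + m / c) % 2 = 0)) ↔ A)) :
    El Q r (InvND Q · m δ) ↔ A := by
  subst hV hε
  have h6 : ∀ u v : ℤˣ, u = v ↔ (u = 1 ↔ v = 1) := by decide
  rcases eq_or_ne r 2 with rfl | hr2
  · rcases eq_or_ne p 2 with rfl | hp
    · have h7 := CharP.cast_eq_zero F 2
      exact (el_nd_char_two hQ h7 (Nat.not_odd_iff_even.1 fun h => ho h rfl) h0 hm).trans (h1 rfl rfl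
        (Nat.even_iff.1 (Nat.not_odd_iff_even.1 fun h => odd_card_iff.1 (hq ▸ h) h7)))
    obtain ⟨h7, h8, h9, h10⟩ := signs_of_ne_two hq hp
    refine (el_nd_two hQ h7 h0 hm).trans (Iff.trans ?_ (h2 rfl hp h8))
    simp only [h6 _ (sqsign _ ^ _), units_pow_eq_one, h9, h10]
    exact forall₄_congr fun _ _ _ _ => ⟨fun ⟨b, e1, e2⟩ => ⟨by omega, e2.trans (by omega)⟩,
      fun ⟨e1, e2⟩ => ⟨m / 2, by omega, e2.trans (by omega)⟩⟩
  have h7 := hr.two_le.lt_of_ne hr2.symm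
  rcases eq_or_ne r p with rfl | hp
  · exact h3 h7 rfl (signs_of_ne_two hq hr2).1
  have h := OP.of hq hr hr2 hp hi hc
  have h8 := (invND_one hQ (δ := δ)).2 ⟨hm.le, by omega, by omega, fun e => (signs_of_ne_two hq (ho e)).1⟩
  exact (h.el_nd hQ h5 h8).trans ((nfit_le_add_iff h.pos h0 hm (h.nfit_lt_of_nd hQ h8 hd).2).trans
    (h4 h7 hp (by simp only [Nat.even_iff] at hc; split_ifs at hc <;> omega) ⟨Nat.mod_mod_of_dvd _
      h.even.two_dvd, Nat.mod_mod_of_dvd _ h.even.two_dvd, fun e => Nat.le_of_dvd h0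
        (Nat.dvd_of_mod_eq_zero e), (divmod_facts h.pos hm.le).2⟩ _ fun e => by
      rw [units_pow_even ((Nat.even_iff.2 e).mul_right _), mul_one]))

theorem el_ts_iff (hq : Fintype.card F = q) (hQ : ND Q) (hV : finrank F V = n) (h5 : 5 ≤ n)
    (hm : 2 * m < n) (hr : r.Prime) (hd : r ∣ nTS Q m) (hi : i = orderOf (q : ZMod r))
    (hc : c = if Even i then i else 2 * i) {ε : ℤˣ} (hε : qsg Q = ε) {A : Prop}
    (h2 : r = 2 → p ≠ 2 → q % 2 = 1 → ((q % 4 = 1 ∨ 2 * m + 2 ≤ n ∧ (2 * m + 2 = n → ε = -1)) ∧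
      (∀ d, n = 2 * d → (ε = 1 ↔ d % 2 = 0 ∨ q % 4 = 1) → (d % 2 = 0 ∨ q % 8 = 1 ∨ q % 8 = 7) →
        m % 2 = 0 ∨ q % 4 = 1) ↔ A))
    (h4 : 2 < r → r ≠ p → 0 < i → ((i ≤ m ∧ (Odd i → 2 * (m % i) < n % c ∨ 2 * (m % i) = n % c ∧ ε = 1 ∨
      n % c = 0 ∧ ε = -1) ∧ (Even i → (r - 1) / i + 2 * (m / i) ≤ n / i ∧
        (2 * (m % i) ≤ i ∧ n % c = 0 ∧ ¬ (ε = 1 ↔ Even (n / i)) ∧ (r - 1) / i + 2 * (m / i) < n / i ∨
          2 * (m % i) ≤ n % c ∧ (ε = 1 ↔ Even (n / i)) ∨ 2 * (m % i) < n % c))) ↔ A)) :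
    El Q r (InvTS Q · m) ↔ A := by
  subst hV hε
  have h6 : ∀ u v : ℤˣ, u = v ↔ (u = 1 ↔ v = 1) := by decide
  obtain ⟨h1, h3⟩ := exists_dvd_of_dvd_nTS hr m V Q hQ hm hd
  have hp : r ≠ p := by rintro rfl; exact h1 (char_dvd_card r)
  rcases eq_or_ne r 2 with rfl | hr2
  · obtain ⟨h7, h8, h9, h10⟩ := signs_of_ne_two hq hp.symm
    refine (el_ts_two hQ h7 (by omega) hm).trans (Iff.trans ?_ (h2 rfl hp.symm h8))
    simp only [h6 _ (sqsign _ ^ _), units_pow_eq_one, h9, h10, Nat.even_iff]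
  have h := OP.of hq hr hr2 hp hi hc
  have h7 := h3 i c h
  refine (h.el_ts hQ h5 hm rfl h7).trans (Iff.trans (and_congr_right fun h8 => ?_)
    (h4 (hr.two_le.lt_of_ne hr2.symm) hp h.i_pos))
  have h9 := Nat.div_add_mod (finrank F V) c
  have h10 := Nat.mod_lt m h.i_pos
  have h11 := Nat.mod_lt (finrank F V) h.pos
  have h12 : ∀ a, a ≠ 0 → c * (a - 1) + c = c * a := fun a ha => by
    rw [← Nat.mul_succ, Nat.succ_eq_add_one, Nat.sub_add_cancel (Nat.pos_of_ne_zero ha)]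
  have h14 := h12 (finrank F V / c)
  replace h7 := (Nat.zero_le _).trans_lt h7
  clear h2 h4 h1 h3 hd
  simp only [nfit, ne_eq, eq_neg_one_pow_iff, ← Int.units_ne_iff_eq_neg, Nat.even_iff, Nat.odd_iff] at h7 hc ⊢
  generalize (r - 1) / i = t
  generalize m / i = b
  rcases i.mod_two_eq_zero_or_one with e | e <;> simp only [e, if_true, if_false, one_ne_zero, zero_ne_one,
    true_imp_iff, false_imp_iff, true_and, and_true, true_or, false_or] at h7 hc ⊢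
  · subst c
    by_cases e : qsg Q = 1 <;> simp only [e, true_iff, false_iff] at h7 ⊢ <;> split_ifs at h7 ⊢ <;>
      generalize finrank F V / i = a at * <;> omega
  · by_cases e : qsg Q = 1 <;> simp [e] at h7 ⊢ <;> (try split_ifs at h7 ⊢) <;>
      generalize finrank F V / c = a at * <;> omega

end final

end Cfsg.Lib.Orth
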