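import Cfsg.Agent.Lib.Orth.Semis
import Cfsg.Agent.Lib.OMax.ExtA

/-!
# Restriction of scalars for quadratic forms: discriminants and spinor norms
-/

set_option autoImplicit false

namespace Cfsg.Lib.Orth

open QuadraticMap Module

variable {F V K : Type*} [Field F] [AddCommGroup V] [Module F V] [Field K] [Algebra F K]
  [Module K V] [IsScalarTower F K V]

theorem two_ne_zero_ext (h2 : (2 : F) ≠ 0) : (2 : K) ≠ 0 := by
  rwa [← map_ofNat (algebraMap F K) 2, map_ne_zero]

/-- A form for which `K` is self-adjoint is a trace form. -/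
theorem exists_eq_resScal [Module.Finite F K] {Q : QuadraticForm F V} (hQ : ND Q) (h2 : (2 : F) ≠ 0)
    {τ : K →ₗ[F] F} (hτ0 : τ ≠ 0) (hs : ∀ (κ : K) u v, polar Q (κ • u) v = polar Q u (κ • v)) :
    ∃ q : QuadraticForm K V, ND q ∧ Q = resScal τ q := by
  obtain ⟨B, hB⟩ := OMax.exists_kform hτ0 (polarBilin Q) (σ := RingHom.id K) hs
  simp only [polarBilin_apply_apply] at hB
  have hsymm : ∀ u v, B u v = B v u := fun u v => OMax.eq_of_coef hτ0 fun κ => by
    rw [hB, hB, ← hs, polar_comm]
  have h2' : (2 : K) ≠ 0 := two_ne_zero_ext h2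
  refine ⟨(2⁻¹ : K) • LinearMap.BilinMap.toQuadraticMap B, (nd_iff _).2 fun x hx =>
    hQ.eq_zero fun y => ?_, QuadraticMap.ext fun v => ?_⟩
  · have := hx y
    simp only [polar, QuadraticMap.smul_apply, LinearMap.BilinMap.toQuadraticMap_apply, map_add,
      LinearMap.add_apply, smul_eq_mul, hsymm y x] at this
    rw [← one_smul K y, ← hB, show B x y = 0 by
      field_simp at this
      exact (mul_eq_zero.1 (show 2 * B x y = 0 by linear_combination this)).resolve_left h2',
      mul_zero, map_zero]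
  · refine mul_left_cancel₀ h2 ?_
    rw [resScal_apply, ← polar_self', ← smul_eq_mul, ← map_smul, Algebra.smul_def, map_ofNat,
      QuadraticMap.smul_apply, LinearMap.BilinMap.toQuadraticMap_apply, smul_eq_mul,
      mul_inv_cancel_left₀ h2', ← one_mul (B v v), hB, one_smul]

variable {τ : K →ₗ[F] F}

theorem disc_resScal_qOne [Finite F] [Module.Finite F K] (h2 : (2 : F) ≠ 0) (hτ : τ ≠ 0) {a : K}
    (ha : a ≠ 0) : disc (resScal τ (qOne a)) =
      sqsign (Algebra.norm F a) * disc (resScal τ (qOne (1 : K))) := by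
  classical
  let b := finBasis F K
  have h1 : gram (resScal τ (qOne a)) b =
      gram (resScal τ (qOne (1 : K))) b * Algebra.leftMulMatrix b a := by
    ext i j
    have h3 : a * b j = ∑ k, Algebra.leftMulMatrix b a k j • b k := by
      simp only [Algebra.leftMulMatrix_eq_repr_mul, Basis.sum_repr]
    simp only [gram, Matrix.of_apply, polar_resScal, polar_qOne, Matrix.mul_apply]
    rw [show 2 * a * b i * b j = 2 * 1 * b i * (a * b j) by ring, h3, Finset.mul_sum, map_sum]
    refine Finset.sum_congr rfl fun k _ => ?_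
    rw [mul_smul_comm, map_smul, smul_eq_mul, mul_comm]
  rw [disc_eq b, disc_eq b, h1, Matrix.det_mul, ← Algebra.norm_eq_matrix_det, mul_comm, sqsign_mul]
  · exact Algebra.norm_ne_zero_iff.2 ha
  · exact det_gram_ne_zero (nd_resScal hτ (nd_qOne (two_ne_zero_ext h2) one_ne_zero)) b

theorem IsOSum.resScal {q : QuadraticForm K V} {W U : Submodule K V} (h : IsOSum q W U) :
    IsOSum (resScal τ q) (W.restrictScalars F) (U.restrictScalars F) where
  isCompl := ⟨by
    rw [Submodule.disjoint_def]
    exact fun x hx hx' => Submodule.disjoint_def.1 h.isCompl.disjoint x hx hx', by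
    rw [codisjoint_iff, eq_top_iff]
    intro v _
    obtain ⟨w, hw, u, hu, rfl⟩ := h.exists_add v
    exact Submodule.add_mem_sup hw hu⟩
  orth w hw u hu := by rw [polar_resScal, h.orth w hw u hu, map_zero]

theorem resScal_restrict_span {q : QuadraticForm K V} {w : V} (hw : w ≠ 0) :
    (resScal τ (qOne (q w))).Equivalent ((resScal τ q).restrict ((K ∙ w).restrictScalars F)) :=
  equivalent_of ((LinearEquiv.toSpanNonzeroSingleton K V w hw).restrictScalars F) fun κ => by
    change τ (q (κ • w)) = τ (qOne (q w) κ)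
    rw [Q_smul, qOne_apply, mul_comm]

variable [Finite F] [FiniteDimensional F V] [Module.Finite F K] {q : QuadraticForm K V}

theorem dickson_spinor_res_refl (h2 : (2 : F) ≠ 0) (hτ : τ ≠ 0) (hQ : ND (resScal τ q)) {w : V}
    (hw : q w ≠ 0) : dickson hQ (O.resScal τ q (refl q w)) = (-1) ^ finrank F K ∧
      spinor hQ (O.resScal τ q (refl q w)) = sqsign (Algebra.norm F (q w)) *
        (sqsign (2 : F) ^ finrank F K * disc (resScal τ (qOne (1 : K)))) := by
  haveI : FiniteDimensional K V := Module.Finite.of_restrictScalars_finite F K V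
  have S := (isOSum_singleton (two_ne_zero_ext (F := F) h2) hw).resScal (τ := τ)
  have h0 := ne_zero_of_Q_ne_zero hw
  have E := resScal_restrict_span (τ := τ) (q := q) h0
  have := dickson_spinor_of_orth hQ S h2 (g := O.resScal τ q (refl q w)) (fun x hx => by
    obtain ⟨κ, rfl⟩ := Submodule.mem_span_singleton.1 hx
    rw [O.resScal_apply, map_smul, refl_apply_self hw, smul_neg]) fun u hu =>
      refl_apply_of_perp (mem_perp_singleton.1 hu)
  rw [← finrank_eq_of_equivalent E, ← disc_congr E, disc_resScal_qOne h2 hτ hw] at this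
  exact ⟨this.1, this.2.trans (mul_left_comm _ _ _)⟩

theorem exists_norm_not_isSquare (h2 : (2 : F) ≠ 0) :
    ∃ a : K, a ≠ 0 ∧ sqsign (Algebra.norm F a) = -1 := by
  haveI : Finite K := Module.finite_of_finite F
  obtain ⟨c, hc⟩ := exists_not_isSquare h2
  obtain ⟨a, rfl⟩ := FiniteField.norm_surjective F K c
  exact ⟨a, Algebra.norm_ne_zero_iff.1 (ne_zero_of_not_isSquare hc), sqsign_of_not_isSquare hc⟩

/-- Two reflections over `K` in a nondegenerate subspace whose product has spinor norm `-1`. -/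
theorem exists_res_refl_mul (h2 : (2 : F) ≠ 0) (hτ : τ ≠ 0) (hQ : ND (resScal τ q))
    {P : Submodule K V} (hP : ND (q.restrict P)) (hn : 2 ≤ finrank K P) :
    ∃ w ∈ P, ∃ w' ∈ P, q w ≠ 0 ∧ q w' ≠ 0 ∧
      dickson hQ (O.resScal τ q (refl q w * refl q w')) = 1 ∧
      spinor hQ (O.resScal τ q (refl q w * refl q w')) = -1 := by
  haveI : Finite K := Module.finite_of_finite F
  haveI : FiniteDimensional K V := Module.Finite.of_restrictScalars_finite F K V
  obtain ⟨a, ha, ha'⟩ := exists_norm_not_isSquare (K := K) h2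
  obtain ⟨w, hw⟩ := exists_Q_eq hP hn a
  obtain ⟨w', hw'⟩ := exists_Q_eq hP hn 1
  change q w = a at hw
  change q w' = 1 at hw'
  have h1 := dickson_spinor_res_refl h2 hτ hQ (hw ▸ ha : q w ≠ 0)
  have h3 := dickson_spinor_res_refl h2 hτ hQ (hw' ▸ one_ne_zero : q w' ≠ 0)
  refine ⟨w, w.2, w', w'.2, hw ▸ ha, hw' ▸ one_ne_zero, ?_, ?_⟩
  · rw [map_mul, map_mul, h1.1, h3.1, Int.units_mul_self]
  · rw [map_mul, map_mul, h1.2, h3.2, hw, hw', ha', map_one, sqsign_one, one_mul, mul_assoc,
      Int.units_mul_self, mul_one]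

end Cfsg.Lib.Orth
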