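import Cfsg.Agent.Lib.Symp.ElusK2
import Cfsg.Agent.Lib.Orth.Elus4
import Cfsg.Agent.Lib.Orth.ResK

/-!
# Elements of prime order of `PΩ` and the field extension subgroups `O_{n/2}(q²)`
-/

set_option autoImplicit false

namespace Cfsg.Lib.Orth

open Module Polynomial Cfsg.Lib.GLC Cfsg.Lib.Symp Cfsg.Lib.Linear
open LinearMap hiding polar zero_apply add_apply sub_apply
open QuadraticMap (polar polarBilin polar_comm polar_sub_left polar_sub_right polar_prod)

universe u w

variable {F : Type w} {V W : Type*} [Field F] [AddCommGroup V] [Module F V] [AddCommGroup W]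
  [Module F W] {Q : QuadraticForm F V} {Q' : QuadraticForm F W} {f J : End F V} {g J' : End F W}
  {r : ℕ} {l : F}

section K

variable {K : Type*} [Field K] [Algebra F K] [Finite F] [Module.Finite F K] {τ : K →ₗ[F] F}

theorem sqsign_norm (h2 : (2 : F) ≠ 0) {a : K} (ha : a ≠ 0) :
    sqsign (Algebra.norm F a) = sqsign a := by
  haveI : Finite K := Module.finite_of_finite F
  have h1 : ∀ a : K, IsSquare a → sqsign (Algebra.norm F a) = 1 := fun a h =>
    sqsign_of_isSquare (h.map _)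
  by_cases h : IsSquare a
  · rw [h1 a h, sqsign_of_isSquare h]
  obtain ⟨b, hb, h3⟩ := exists_norm_not_isSquare (K := K) h2
  have h4 : ¬ IsSquare b := fun e => by simp [h1 b e] at h3
  obtain ⟨c, hc, rfl⟩ := exists_sq_mul_of_sqsign_eq hb ha
    ((sqsign_of_not_isSquare h4).trans (sqsign_of_not_isSquare h).symm)
  rw [map_mul, map_pow, sqsign_sq_mul (Algebra.norm_ne_zero_iff.2 hc), h3, sqsign_of_not_isSquare h]

theorem disc_resScal (h2 : (2 : F) ≠ 0) (hτ : τ ≠ 0) (n : ℕ) : ∀ (V : Type u) [AddCommGroup V]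
    [Module F V] [Module K V] [IsScalarTower F K V] [Module.Finite F V] [Module.Finite K V]
    (q : QuadraticForm K V), ND q → finrank K V = n → disc (resScal τ q) =
      disc q * (sqsign (2 : K) * disc (resScal τ (qOne (1 : K)))) ^ n := by
  haveI : Finite K := Module.finite_of_finite F
  have h2' := two_ne_zero_ext (K := K) h2
  induction n with
  | zero =>
    intro V _ _ _ _ _ _ q hq hV
    haveI : Subsingleton V := finrank_zero_iff.1 hV
    have e1 := qsg_eq_disc hq h2'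
    have e2 := qsg_eq_disc (nd_resScal hτ hq) h2
    rw [qsg_zero hV, hV] at e1
    rw [qsg_zero finrank_zero_of_subsingleton, finrank_zero_of_subsingleton] at e2
    simp at e1 e2
    simp [← e1, ← e2]
  | succ n ih =>
    intro V _ _ _ _ _ _ q hq hV
    haveI : Nontrivial V := nontrivial_of_finrank_pos (R := K) (by omega)
    obtain ⟨w, hw⟩ := hq.exists_Q_ne
    have S := isOSum_singleton h2' hw
    have h0 := ne_zero_of_Q_ne_zero hw
    have h1 := finrank_perp_singleton hq h0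
    haveI : Module.Finite F (perp q (K ∙ w)) := .of_injective
      ((perp q (K ∙ w)).subtype.restrictScalars F) Subtype.val_injective
    have h3 : (resScal τ (q.restrict (perp q (K ∙ w)))).Equivalent
        ((resScal τ q).restrict ((perp q (K ∙ w)).restrictScalars F)) :=
      equivalent_of ((Submodule.restrictScalarsEquiv F K V _).symm.restrictScalars F) fun _ => rfl
    have h4 : (qOne (q w)).Equivalent (q.restrict (K ∙ w)) :=
      equivalent_of (LinearEquiv.toSpanNonzeroSingleton K V w h0) fun κ => by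
        change q (κ • w) = qOne (q w) κ
        rw [Q_smul, qOne_apply, mul_comm]
    rw [(S.resScal (τ := τ)).disc_eq (nd_resScal hτ hq), S.disc_eq hq,
      ← disc_congr (resScal_restrict_span (τ := τ) (q := q) h0), ← disc_congr h3, ← disc_congr h4,
      ih _ _ (S.nd_right hq) (by omega), disc_resScal_qOne h2 hτ hw, disc_qOne, sqsign_norm h2 hw,
      sqsign_mul h2' hw, pow_succ]
    generalize sqsign (2 : K) = a
    rcases Int.units_eq_one_or a with rfl | rfl <;> simp [mul_comm, mul_left_comm, mul_assoc]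

variable [Module K V] [IsScalarTower F K V] [Module.Finite F V]

theorem qsg_resScal (h2 : (2 : F) ≠ 0) (hτ : τ ≠ 0) (hK : finrank F K = 2) [Module.Finite K V]
    {q : QuadraticForm K V} (hq : ND q) (he : Even (finrank K V)) : qsg (resScal τ q) = qsg q := by
  haveI : Finite K := Module.finite_of_finite F
  have h1 : sqsign (-1 : K) = 1 := by
    rw [← sqsign_norm h2 (by simp), ← map_one (algebraMap F K), ← map_neg, Algebra.norm_algebraMap, hK,
      sqsign_sq]
  rw [qsg_eq_disc (nd_resScal hτ hq) h2, qsg_eq_disc hq (two_ne_zero_ext h2),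
    disc_resScal h2 hτ _ V q hq rfl, ← finrank_mul_finrank F K V, hK, h1,
    Nat.mul_div_cancel_left _ two_pos, units_pow_even he, units_pow_even he, one_pow, mul_one]

theorem exists_kIsom [Module K W] [IsScalarTower F K W] [Module.Finite F W] (hQ : ND Q)
    (h2 : (2 : F) ≠ 0) (H : Q.Equivalent Q')
    (hs : ∀ (κ : K) u v, polar Q (κ • u) v = polar Q u (κ • v))
    (hs' : ∀ (κ : K) u v, polar Q' (κ • u) v = polar Q' u (κ • v)) :
    ∃ e : V ≃ₗ[K] W, ∀ v, Q' (e v) = Q v := by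
  haveI : Finite K := Module.finite_of_finite F
  haveI := Module.Finite.of_restrictScalars_finite F K V
  haveI := Module.Finite.of_restrictScalars_finite F K W
  have hτ := Algebra.trace_ne_zero F K
  obtain ⟨q, hq, rfl⟩ := exists_eq_resScal hQ h2 hτ hs
  obtain ⟨q', hq', rfl⟩ := exists_eq_resScal (nd_of_equivalent H hQ) h2 hτ hs'
  have h1 : finrank K V = finrank K W := Nat.eq_of_mul_eq_mul_left (finrank_pos (R := F) (M := K))
    (by rw [finrank_mul_finrank, finrank_mul_finrank, finrank_eq_of_equivalent H])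
  have h3 := disc_congr H
  rw [disc_resScal h2 hτ _ V q hq h1, disc_resScal h2 hτ _ W q' hq' rfl, mul_left_inj] at h3
  obtain ⟨e, he⟩ := equivalent_iff.1 (equivalent_of_disc_eq hq hq' (two_ne_zero_ext h2) h1 h3)
  exact ⟨e, fun v => congrArg (Algebra.trace F K) (he v)⟩

end K

/-- `J` is self-adjoint with `J² = l`. -/
structure SJ (Q : QuadraticForm F V) (l : F) (J : End F V) : Prop where
  adj : ∀ u v, polar Q (J u) v = polar Q u (J v)
  sq : ∀ v, J (J v) = l • v

theorem SJ.qsim (h : SJ Q l J) (H : QSim Q J Q' J') : SJ Q' l J' := by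
  obtain ⟨e, h1, h2⟩ := H
  refine ⟨fun u v => ?_, fun v => ?_⟩
  · obtain ⟨u, rfl⟩ := e.surjective u
    obtain ⟨v, rfl⟩ := e.surjective v
    rw [← h2, ← h2, polar_of_isom' e h1, polar_of_isom' e h1, h.adj]
  · obtain ⟨v, rfl⟩ := e.surjective v
    rw [← h2, ← h2, h.sq, map_smul]

theorem SJ.prodMap (h : SJ Q l J) (h' : SJ Q' l J') : SJ (Q.prod Q') l (J.prodMap J') :=
  ⟨fun u v => by simp [polar_prod, h.adj, h'.adj], fun v => by simp [h.sq, h'.sq, Prod.ext_iff]⟩

theorem SJ.exists_hom (h : SJ Q l J) : ∃ φ : AdjoinRoot (X ^ 2 - C l) →ₐ[F] End F V,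
    φ (AdjoinRoot.root _) = J ∧ ∀ κ u v, polar Q (φ κ u) v = polar Q u (φ κ v) := by
  have h0 : aeval J (X ^ 2 - C l) = 0 := LinearMap.ext fun v => by simp [pow_two, h.sq]
  let φ : AdjoinRoot (X ^ 2 - C l) →ₐ[F] End F V := Ideal.Quotient.liftₐ _ (aeval J) fun a ha => by
    obtain ⟨b, rfl⟩ := Ideal.mem_span_singleton'.1 ha
    simp [h0]
  have hφ : ∀ p, φ (AdjoinRoot.mk _ p) = aeval J p := fun _ => rfl
  refine ⟨φ, (hφ X).trans (aeval_X _), fun κ u v => ?_⟩
  obtain ⟨p, rfl⟩ := AdjoinRoot.mk_surjective κ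
  rw [hφ]
  induction p using Polynomial.induction_on generalizing u v with
  | C a => simp [polar_smul_left', polar_smul_right']
  | add p q hp hq => simp [QuadraticMap.polar_add_left, QuadraticMap.polar_add_right, hp, hq]
  | monomial n a ih =>
    have e : aeval J (C a * X ^ (n + 1)) = J * aeval J (C a * X ^ n) := by
      rw [pow_succ', mul_left_comm, map_mul, aeval_X]
    conv_rhs => rw [e]
    rw [pow_succ, ← mul_assoc, map_mul, aeval_X, End.mul_apply, ih, h.adj, End.mul_apply]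

variable [Finite F] [Module.Finite F V] [Module.Finite F W]

theorem SJ.qsim_of (h : SJ Q l J) (h' : SJ Q' l J') (hQ : ND Q) (h2 : (2 : F) ≠ 0)
    (hl : ¬ IsSquare l) (H : Q.Equivalent Q') : QSim Q J Q' J' := by
  have hg : Irreducible (X ^ 2 - C l) :=
    X_pow_sub_C_irreducible_of_prime Nat.prime_two fun b hb => hl ⟨b, by rw [← hb, pow_two]⟩
  haveI := Fact.mk hg
  obtain ⟨φ, h3, h4⟩ := h.exists_hom
  obtain ⟨φ', h3', h4'⟩ := h'.exists_hom
  letI := Module.compHom V φ.toRingHom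
  letI := Module.compHom W φ'.toRingHom
  haveI : IsScalarTower F (AdjoinRoot (X ^ 2 - C l)) V :=
    ⟨fun a κ v => LinearMap.congr_fun (map_smul φ a κ) v⟩
  haveI : IsScalarTower F (AdjoinRoot (X ^ 2 - C l)) W :=
    ⟨fun a κ v => LinearMap.congr_fun (map_smul φ' a κ) v⟩
  haveI := (AdjoinRoot.powerBasis hg.ne_zero).finite
  obtain ⟨e, he⟩ := exists_kIsom (K := AdjoinRoot (X ^ 2 - C l)) hQ h2 H h4 h4'
  exact ⟨e.restrictScalars F, he, fun v => h3 ▸ h3' ▸ e.map_smul (AdjoinRoot.root _) v⟩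

theorem exists_sJ (hQ : ND Q) (h2 : (2 : F) ≠ 0) (hl : ¬ IsSquare l) (he : Even (finrank F V)) :
    ∃ J, SJ Q l J := by
  have hg : Irreducible (X ^ 2 - C l) :=
    X_pow_sub_C_irreducible_of_prime Nat.prime_two fun b hb => hl ⟨b, by rw [← hb, pow_two]⟩
  haveI := Fact.mk hg
  let K := AdjoinRoot (X ^ 2 - C l)
  haveI := (AdjoinRoot.powerBasis hg.ne_zero).finite
  haveI : Finite K := Module.finite_of_finite F
  have hK : finrank F K = 2 := by
    rw [(AdjoinRoot.powerBasis hg.ne_zero).finrank]; exact natDegree_X_pow_sub_C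
  have hτ := Algebra.trace_ne_zero F K
  have h2' := two_ne_zero_ext (K := K) h2
  obtain ⟨d, hd⟩ := he
  rcases d.eq_zero_or_pos with rfl | h0
  · haveI : Subsingleton V := finrank_zero_iff.1 hd
    exact ⟨0, fun u v => by simp, fun v => Subsingleton.elim _ _⟩
  obtain ⟨q, hq, h3⟩ := exists_qsg (F := K) h0.ne' (fun _ => h2') (disc Q *
    (sqsign (2 : K) * disc (resScal (Algebra.trace F K) (qOne (1 : K)))) ^ d * sqsign (-1 : K) ^ (d / 2))
  rw [qsg_eq_disc hq h2', finrank_fin_fun, mul_left_inj] at h3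
  obtain ⟨J, H⟩ := exists_qsim (equivalent_of_disc_eq (nd_resScal hτ hq) hQ h2
    (by rw [← finrank_mul_finrank F K, hK, finrank_fin_fun, hd, two_mul])
    (by rw [disc_resScal h2 hτ d _ q hq (finrank_fin_fun _), h3, mul_assoc, Int.units_mul_self, mul_one]))
    (kmul F _ (AdjoinRoot.root (X ^ 2 - C l)))
  refine ⟨J, SJ.qsim ⟨fun u v => ?_, fun v => ?_⟩ H⟩
  · simp only [kmul_apply, polar_resScal, polar_smul_left', polar_smul_right']
  · have := AdjoinRoot.eval₂_root (X ^ 2 - C l)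
    simp only [eval₂_sub, eval₂_X_pow, eval₂_C, sub_eq_zero] at this
    rw [kmul_apply, kmul_apply, smul_smul, ← pow_two, this]
    exact algebraMap_smul K l v

/-- `f` normalizes `F[J]`. -/
def NJ (f J : End F V) : Prop := ∃ ε : F, ∀ v, f (J v) = ε • J (f v)

/-- `f` normalizes `F[J]` for `J` in both `SO`-classes. -/
def GJ (Q : QuadraticForm F V) (l : F) (f : End F V) : Prop :=
  ∃ J w, SJ Q l J ∧ NJ f J ∧ Q w ≠ 0 ∧ NJ f ((refl Q w).1.toLinearMap ∘ₗ J ∘ₗ (refl Q w).1.toLinearMap)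

omit [Finite F] [Module.Finite F V] [Module.Finite F W] in
theorem GJ.qsim (h : GJ Q l f) (H : QSim Q f Q' g) : GJ Q' l g := by
  obtain ⟨J, w, h1, ⟨a, ha⟩, h3, b, hb⟩ := h
  obtain ⟨e, h4, h5⟩ := H
  have h6 : ∀ v, (refl Q' (e w)).1 (e v) = e ((refl Q w).1 v) := fun v => by
    rw [← O.congrI_refl e h4, O.congrI_apply']
  refine ⟨e.conj J, e w, h1.qsim ⟨e, h4, by simp⟩, ⟨a, fun v => ?_⟩, by rwa [h4], b, fun v => ?_⟩
  · obtain ⟨v, rfl⟩ := e.surjective v
    simp [← h5, ha]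
  · obtain ⟨v, rfl⟩ := e.surjective v
    simpa [← h5, h6] using congrArg e (hb v)

theorem gJ_neg [Nontrivial V] (hQ : ND Q) (hQ' : ND Q') (h2 : (2 : F) ≠ 0) (hl : ¬ IsSquare l)
    (he : Even (finrank F V)) (he' : Even (finrank F W)) :
    GJ (Q.prod Q') l (prodMap ((-1 : F) • 1) 1) := by
  obtain ⟨J, h⟩ := exists_sJ hQ h2 hl he
  obtain ⟨J', h'⟩ := exists_sJ hQ' h2 hl he'
  obtain ⟨w, hw⟩ := hQ.exists_Q_ne
  refine ⟨_, (w, 0), h.prodMap h', ⟨1, fun v => by simp⟩, by simpa, 1, fun v => ?_⟩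
  simp [← O.prodMap_refl_left]

omit [Module.Finite F V] in
theorem gJ_rot [Nontrivial V] (hQ : ND Q) (h2 : (2 : F) ≠ 0) : GJ (Q.prod Q) l (rot F V) := by
  obtain ⟨a, b, hab⟩ := exists_sum_two_sq h2 one_ne_zero one_ne_zero l
  obtain ⟨w, hw⟩ := hQ.exists_Q_ne
  refine ⟨(a • fst F V V + b • snd F V V).prod (b • fst F V V - a • snd F V V), (w, 0),
    ⟨fun u v => ?_, fun v => ?_⟩, ⟨-1, fun v => ?_⟩, by simpa, -1, fun v => ?_⟩
  · simp [polar_prod, QuadraticMap.polar_add_left, QuadraticMap.polar_add_right, polar_sub_left,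
      polar_sub_right, polar_smul_left', polar_smul_right']
    ring
  · ext <;> simp [← hab] <;> module
  · ext <;> simp [rot] <;> module
  · ext <;> simp [rot, ← O.prodMap_refl_left] <;> module

variable {K : Type*} [Field K] [Algebra F K] [Module K V] [IsScalarTower F K V]

variable (K) in
/-- An `Ω`-conjugate of `f` is `K`-semilinear. -/
def OmK (Q : QuadraticForm F V) (f : End F V) : Prop :=
  ∃ o ∈ commutator (O Q), ∃ g : End F V, SemL K g ∧ ∀ v, o.1 (g v) = f (o.1 v)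

omit [Finite F] in
theorem exists_sqrt_gen (h2 : (2 : F) ≠ 0) (hK : finrank F K = 2) : ∃ (ω : K) (l : F),
    ¬ IsSquare l ∧ ω * ω = algebraMap F K l ∧ ∀ κ, ∃ a b : F, κ = algebraMap F K a + b • ω := by
  obtain ⟨κ, hκ⟩ : ∃ κ : K, ∀ c, algebraMap F K c ≠ κ := by
    by_contra! h
    have := (LinearEquiv.ofBijective (Algebra.linearMap F K) ⟨(algebraMap F K).injective, h⟩).finrank_eq
    simp [hK] at this
  obtain ⟨a, b, hab⟩ := exists_add_smul_of_finrank_two hK hκ (κ * κ)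
  have h2' := two_ne_zero_ext (K := K) h2
  have h3 : ∀ c, algebraMap F K c ≠ 2 * κ - algebraMap F K b := fun c hc => hκ ((c + b) / 2) (by
    rw [map_div₀, map_add, hc, map_ofNat]; field_simp; ring)
  have h4 : (2 * κ - algebraMap F K b) * (2 * κ - algebraMap F K b) = algebraMap F K (4 * a + b ^ 2) := by
    rw [Algebra.smul_def] at hab
    rw [map_add, map_mul, map_pow, map_ofNat]
    linear_combination 4 * hab
  refine ⟨_, _, fun ⟨c, hc⟩ => ?_, h4, exists_add_smul_of_finrank_two hK h3⟩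
  rw [hc, map_mul] at h4
  exact (mul_self_eq_mul_self_iff.1 h4).elim (fun e => h3 c e.symm) fun e => h3 (-c) (by rw [e, map_neg])

theorem GJ.omK (h : GJ Q l f) (hQ : ND Q) (h2 : (2 : F) ≠ 0) (h5 : 5 ≤ finrank F V)
    (hK : finrank F K = 2) (hs : ∀ (κ : K) u v, polar Q (κ • u) v = polar Q u (κ • v)) {ω : K}
    (hl : ¬ IsSquare l) (hω : ω * ω = algebraMap F K l)
    (hs' : ∀ κ, ∃ a b : F, κ = algebraMap F K a + b • ω) : OmK K Q f := by
  haveI : Module.Finite F K := Module.finite_of_finrank_pos (by omega)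
  haveI := Module.Finite.of_restrictScalars_finite F K V
  obtain ⟨J, w, h1, h3, h4, h6⟩ := h
  obtain ⟨e, h7, h8⟩ := SJ.qsim_of (J := kmul F V ω) ⟨hs ω, fun v => by
    simp [smul_smul, hω]⟩ h1 hQ h2 hl (.refl Q)
  obtain ⟨o, J, h9, ⟨ε, h10⟩, h11⟩ : ∃ (o : O Q) (J : End F V), dickson hQ o = 1 ∧ NJ f J ∧
      ∀ v, o.1 (ω • v) = J (o.1 v) := by
    rcases Int.units_eq_one_or (dickson hQ ⟨e, h7⟩) with h | h
    · exact ⟨⟨e, h7⟩, J, h, h3, h8⟩
    · exact ⟨refl Q w * ⟨e, h7⟩, _, by rw [map_mul, h, dickson_refl hQ h4]; rfl, h6, fun v => by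
        simpa [O.mul_apply] using h8 v⟩
  obtain ⟨c, h12, h13, h14⟩ : ∃ c : O Q, dickson hQ c = 1 ∧ spinor hQ c = spinor hQ o ∧
      ∀ v, c.1 (ω • v) = ω • c.1 v := by
    rcases Int.units_eq_one_or (spinor hQ o) with h | h
    · exact ⟨1, map_one _, by rw [h, map_one], fun _ => rfl⟩
    have hτ := Algebra.trace_ne_zero F K
    obtain ⟨q, hq, rfl⟩ := exists_eq_resScal hQ h2 hτ hs
    obtain ⟨u, -, u', -, -, -, e1, e2⟩ := exists_res_refl_mul h2 hτ hQ (P := ⊤)
      (nd_restrict_iff.2 fun x _ hx => hq.eq_zero fun y => hx y trivial) (by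
        have := finrank_mul_finrank F K V
        rw [finrank_top]; rw [hK] at this; omega)
    exact ⟨_, e1, h ▸ e2, fun v => map_smul (refl q u * refl q u').1 ω v⟩
  refine ⟨o * c, (mem_commutator_iff hQ (not_exc_of_five_le h5) _).2 ⟨by rw [map_mul, h9, h12, mul_one],
    by rw [map_mul, h13, Int.units_mul_self]⟩, ((o * c)⁻¹).1.toLinearMap ∘ₗ f ∘ₗ (o * c).1.toLinearMap,
    fun κ => ?_, fun v => O.apply_inv_apply _ _⟩
  obtain ⟨a, b, rfl⟩ := hs' κ
  refine ⟨algebraMap F K a + (b * ε) • ω, fun v => (o * c).1.injective ?_⟩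
  have h15 : ∀ v, (o * c).1 (ω • v) = J ((o * c).1 v) := fun v => by
    rw [O.mul_apply, h14, h11, O.mul_apply]
  generalize o * c = o at h15
  simp [add_smul, smul_assoc, h15, h10, smul_smul b ε, O.apply_inv_apply, -InvMemClass.coe_inv]

omit [Module K V] [IsScalarTower F K V] in
theorem _root_.Cfsg.Lib.Symp.OP.val_le [Finite K] {i c : ℕ} (h : OP F r i c) (hK : finrank F K = 2)
    (h4 : 4 ∣ c) (m : ℕ) : padicValNat r (cS F (2 * m)) ≤ padicValNat r (cS K m) := by
  haveI := Fact.mk h.prime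
  have h1 : cS F (2 * m) ∣ cS K m * (Nat.card F ^ (2 * m) ^ 2 *
      ∏ j ∈ .range (2 * m) with ¬ 2 ∣ j + 1, (Nat.card F ^ (2 * (j + 1)) - 1)) := by
    rw [cS, cS, prod_range_mul (g := fun j => Nat.card F ^ (2 * j) - 1) two_pos,
      Module.natCard_eq_pow_finrank (K := F) (V := K), hK]
    simp only [← pow_mul]
    exact ⟨Nat.card F ^ (2 * m ^ 2), by ring⟩
  refine (padicValNat_dvd_iff_le (cS_pos m).ne').1 (Nat.Coprime.dvd_of_dvd_mul_right
    (Nat.Coprime.pow_left _ ((Nat.Prime.coprime_iff_not_dvd h.prime).2 fun h2 => ?_))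
    (pow_padicValNat_dvd.trans h1))
  obtain ⟨j, h2, h3⟩ := h.dvd_of_dvd_prod (g := (· + 1)) h2
  have := (Finset.mem_filter.1 h2).2
  have := h4.trans h3
  omega

omit [Module K V] [IsScalarTower F K V] in
theorem _root_.Cfsg.Lib.Symp.OP.ext [Finite K] {m : ℕ} (h : OP F r (4 * m) (4 * m))
    (hK : finrank F K = 2) : OP K r (2 * m) (2 * m) := by
  refine ⟨h.prime, h.odd, by rw [← map_natCast (algebraMap F K), _root_.map_ne_zero]; exact h.ne, ?_, by simp⟩
  have := h.i_pos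
  rw [Module.natCard_eq_pow_finrank (K := F) (V := K), hK, Nat.cast_pow, orderOf_pow' _ two_ne_zero,
    ← h.hi, Nat.gcd_eq_right (by omega)]
  omega

theorem el_omK [hr : Fact r.Prime] (hQ : ND Q) (h2 : (2 : F) ≠ 0) (h5 : 5 ≤ finrank F V)
    (hK : finrank F K = 2) (hs : ∀ (κ : K) u v, polar Q (κ • u) v = polar Q u (κ • v))
    (h : ∀ L ≤ commutator (O Q), (∀ a ∈ L, LinK K a.1.toLinearMap) → r * Nat.card L ∣ Nat.card (O Q)) :
    El Q r (OmK K Q) ↔ r = 2 := by
  haveI : Module.Finite F K := Module.finite_of_finrank_pos (by omega)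
  haveI : Finite K := Module.finite_of_finite F
  haveI := Module.Finite.of_restrictScalars_finite F K V
  haveI : Nontrivial V := nontrivial_of_finrank_pos (R := F) (by omega)
  have hV := finrank_mul_finrank F K V
  rw [hK] at hV
  have hE := not_exc_of_five_le (Q := Q) h5
  refine ⟨fun H => by_contra fun h3 => ?_, ?_⟩
  swap
  · rintro rfl
    obtain ⟨ω, l, hl, hω, hs'⟩ := exists_sqrt_gen h2 hK
    refine (el_two hQ h2 (by omega) (A := fun _ => True) (B := True) (fun f X Y s e1 e2 e3 e4 e5 e6 _ _ H =>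
      iff_of_true ?_ trivial) fun f hf e1 => iff_of_true ?_ trivial).2 (by simp)
    · haveI : Nontrivial X := nontrivial_of_finrank_pos (R := F) (by omega)
      exact ((gJ_neg e3 e4 h2 hl ⟨s, by omega⟩ ⟨finrank K V - s, by omega⟩).qsim H).omK hQ h2 h5 hK hs hl hω hs'
    · obtain ⟨X, e2, H⟩ := hf.exists_rot h2 e1
      have := H.sim.finrank_eq
      haveI : Nontrivial X := nontrivial_of_finrank_pos (R := F) (by rw [finrank_prod] at this; omega)
      exact ((gJ_rot e2 h2).qsim H).omK hQ h2 h5 hK hs hl hω hs'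
  have ho := hr.out.odd_of_ne_two h3
  have h1 : ∀ f, OE Q f → f ^ r = 1 → OmK K Q f → ∃ g, LinK K g ∧ QSim Q g Q f := by
    rintro f hf e1 ⟨o, -, g, e2, e3⟩
    have e4 : QSim Q g Q f := ⟨o.1, o.2, e3⟩
    exact ⟨g, e2.lin_of_coprime (e4.symm.oE hf).surjective (z := 1)
      (by rw [one_smul]; exact (e4.sim.pow r).eq_one_iff.2 e1) one_ne_zero
      (hK ▸ ho.coprime_two_right), e4⟩
  by_cases h0 : (r : F) = 0
  · haveI : CharP F r := (CharP.charP_iff_prime_eq_zero hr.out).2 h0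
    have e0 : 3 ≤ r := by have := hr.out.two_le; omega
    obtain ⟨f, e1, e2⟩ := exists_oE_jt hQ h2 (d := 3 ::ₘ .replicate (finrank F V - 3) 1)
      (by simp [Multiset.mem_replicate]) (fun a ha => by
        rw [Multiset.count_eq_zero.2 (by
          simp only [Multiset.mem_cons, Multiset.mem_replicate]
          rintro (rfl | ⟨-, rfl⟩) <;> revert ha <;> decide)]
        simp) (by simp; omega) (a := 3) (by simp) (by decide)
    have e3 : ∀ a ∈ 3 ::ₘ .replicate (finrank F V - 3) 1, a ≤ r := by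
      simp [Multiset.mem_replicate]; omega
    have e7 : Blocks f _ := e2 ▸ blocks_typ f
    obtain ⟨g, e4, e5⟩ := h1 f e1 (by
      have := (pow_char_pow_eq_one_iff (f := f) r 1).2 (by
        rw [← one_smul F (1 : End F V), e7.jt_pow_eq_zero_iff]
        simpa using e3)
      simpa using this) (H.of_jt e1 h2 e2 e3 (a := 3) (by simp) (by simp))
    have e6 := e4.dvd_kd ((X - C 1) ^ 2)
    rw [e5.sim.kd_eq, kd, aeval_X_sub_C_pow, e7.jt_finrank_ker, hK] at e6
    simp at e6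
    omega
  obtain ⟨i, c, hp⟩ : ∃ i c, OP F r i c := ⟨_, _, hr.out, ho, h0, rfl, rfl⟩
  have hτ := Algebra.trace_ne_zero F K
  obtain ⟨q, hq, rfl⟩ := exists_eq_resScal hQ h2 hτ hs
  obtain ⟨P⟩ : Nonempty (Sylow r (O q)) := inferInstance
  have e1 := val_lt_of_dvd (h (P.1.map (O.resScal _ q)) (by
    rintro _ ⟨a, ha, rfl⟩
    obtain ⟨k, hk⟩ := P.isPGroup' ⟨a, ha⟩
    exact mem_commutator_of_odd hQ hE (ho.pow (n := k))
      (by rw [← map_pow, show a ^ r ^ k = 1 from congrArg Subtype.val hk, map_one])) (by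
    rintro _ ⟨a, -, rfl⟩
    exact a.1.map_smul)) Nat.card_pos.ne'
  rw [Subgroup.card_map_of_injective (fun a b e => O.ext fun v => congrArg (·.1 v) e),
    P.card_eq_multiplicity, padicValNat.prime_pow, Nat.factorization_def _ hr.out, hp.val_O hQ] at e1
  have e2 : 1 ≤ nfit i c (finrank F V) (qsg (resScal (Algebra.trace F K) q)) := by
    by_contra e
    rw [Nat.lt_one_iff.1 (not_le.1 e)] at e1
    simp [cS] at e1
  rw [le_nfit_iff hp.pos qsg_zero] at e2
  obtain ⟨ν, e3, e4, e5⟩ := hp.exists_blocks 1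
  rw [hp.sum_eq e3] at e5
  obtain ⟨f, e6, e7, e8⟩ := exists_oE_RF hQ hp e3 e4 (k := finrank F V - c * 1) (by omega)
    fun e => (e2.2 (by omega)).trans (hp.sign_eq e5).symm
  obtain ⟨g, e9, e10⟩ := h1 f e6 e7 (H f (e6.oM_of_odd hE ho e7) ⟨1, by rwa [one_smul]⟩ fun e => by
    rw [(eq_smul_iff_RF ho e3 e4 (e8 ▸ blocks_typ f)).1 e] at e5
    have := hp.pos
    simp at e5
    omega)
  obtain ⟨φ, e11, e12, e13⟩ := hp.exists_kd e3 e4 (by omega) e8
  rw [← e10.sim.kd_eq] at e13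
  obtain ⟨t, ht⟩ : 2 ∣ i := hK ▸ e13 ▸ e9.dvd_kd φ
  obtain ⟨m, rfl⟩ : 2 ∣ t := hK ▸ finrank_dvd_of_pow fun κ => hp.exists_adj e9 (B := polarBilin _)
    (e10.symm.oE e6).polar (fun v hv => hQ.eq_zero fun u => (polar_comm _ _ _).trans (hv u))
    ((e10.sim.pow r).eq_one_iff.2 e7) e11 e12 e13 ht fun x y => (hs κ x y).symm
  obtain rfl : i = 4 * m := by omega
  obtain rfl : c = 4 * m := by rw [hp.hc, if_pos ⟨2 * m, by omega⟩]
  have e14 : nfit (4 * m) (4 * m) (finrank F V) (qsg (resScal (Algebra.trace F K) q)) =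
      nfit (2 * m) (2 * m) (finrank K V) (qsg q) := by
    have e15 : ∀ k, ((-1) ^ ((4 * m + 1) * k) : ℤˣ) = (-1) ^ ((2 * m + 1) * k) := fun k => by
      rw [pow_mul, pow_mul, Odd.neg_one_pow ⟨2 * m, by ring⟩, Odd.neg_one_pow ⟨m, rfl⟩]
    rw [nfit, nfit, ← hV, e15, show 4 * m = 2 * (2 * m) by ring, Nat.mul_mod_mul_left,
      Nat.mul_div_mul_left _ _ two_pos]
    refine if_congr ?_ rfl rfl
    rw [mul_eq_zero, or_iff_right two_ne_zero]
    exact and_congr_right fun e => by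
      rw [qsg_resScal h2 hτ hK hq (even_iff_two_dvd.2
        ((dvd_mul_right 2 m).trans (Nat.dvd_of_mod_eq_zero e)))]
  rw [e14, (hp.ext hK).val_O hq, show 4 * m / 2 = 2 * (2 * m / 2) by omega, mul_assoc] at e1
  exact e1.not_ge (hp.val_le hK (dvd_mul_right _ _) _)

open Matrix in
theorem fmt_omK {ι : Type} [Fintype ι] [DecidableEq ι] {Q : QuadraticForm F (ι → F)} [Module K (ι → F)]
    [IsScalarTower F K (ι → F)] [Fact r.Prime] (hQ : ND Q) (h2 : (2 : F) ≠ 0) (h5 : 5 ≤ Fintype.card ι)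
    (hK : finrank F K = 2) (hs : ∀ (κ : K) u v, polar Q (κ • u) v = polar Q u (κ • v))
    (h : r ∣ (semiGL K).relIndex (Geo.omegaGL ⇑Q)) :
    (∀ x ∈ Geo.omegaGL ⇑Q, (∃ z : F, (x ^ r).1 = z • 1) → (∀ z : F, x.1 ≠ z • 1) →
      ∃ g ∈ Geo.omegaGL ⇑Q, g⁻¹ * x * g ∈ semiGL K) ↔ r = 2 := by
  haveI : Module.Finite F K := Module.finite_of_finrank_pos (by omega)
  haveI : Finite K := Module.finite_of_finite F
  rw [← el_omK hQ h2 (by simpa) hK hs fun L h1 h3 => ?_, ← forall_omega_iff hQ h5]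
  · refine forall₄_congr fun x _ _ _ => ⟨?_, ?_⟩
    · rintro ⟨_, ⟨a, ha, rfl⟩, h1⟩
      exact ⟨_, (mem_omega_iff a).1 ha, toLin' _, h1.1, fun v => by
        simp [isoEquiv_apply, ← GL_mul_mulVec, mul_assoc]⟩
    · rintro ⟨o, ho, g, h1, h3⟩
      obtain ⟨a, rfl⟩ := (isoEquiv Q).surjective o
      refine ⟨_, ⟨a, (mem_omega_iff a).2 ho, rfl⟩, mem_semiGL_of_forall fun κ => (h1 κ).imp fun κ' e v => ?_⟩
      have h4 : ∀ v, (a.1⁻¹ * x * a.1).1 *ᵥ v = g v := fun v => GL_mulVec_injective a.1 (by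
        simpa [isoEquiv_apply, ← GL_mul_mulVec, ← mul_assoc] using (h3 v).symm)
      exact (h4 _).trans ((e v).trans (congrArg _ (h4 v).symm))
  let ψ := (isometryGroup F ⇑Q).subtype.comp (isoEquiv Q).symm.toMonoidHom
  have h4 : Function.Injective ψ := Subtype.val_injective.comp (isoEquiv Q).symm.injective
  have h6 := mul_card_dvd (K := L.map ψ) h (by
    rintro _ ⟨a, ha, rfl⟩
    exact mem_semiGL_of_linear fun κ v => by simpa [ψ, isoEquiv_symm_mulVec] using h3 a ha κ v) (by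
    rintro _ ⟨a, ha, rfl⟩
    exact ⟨_, (mem_omega_iff _).2 (by simpa using h1 ha), rfl⟩)
  rw [Subgroup.card_map_of_injective h4, Geo.omegaGL,
    Subgroup.card_map_of_injective Subtype.val_injective] at h6
  exact h6.trans ((Subgroup.card_subgroup_dvd_card _).trans (Nat.card_congr (isoEquiv Q).toEquiv).dvd)

end Cfsg.Lib.Orth
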