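import Cfsg.Agent.Lib.Orth.ResK
import Cfsg.Agent.Lib.Orth.GammaStd
import Cfsg.Agent.Lib.Symp.Wall

/-!
# Centralizers of semisimple isometries of odd order in the conformal group
-/

set_option autoImplicit false

namespace Cfsg.Lib.Orth

open QuadraticMap Module Polynomial Gam

theorem exists_binary_eq {A : Type*} [CommRing A] [Finite A] [IsReduced A] {t : A}
    (ht : IsUnit (t ^ 2 - 4)) (c : A) : ∃ a b : A, a ^ 2 + t * a * b + b ^ 2 = c := by
  let e := IsArtinianRing.equivPi A
  have h : ∀ I : MaximalSpectrum A, ∃ a b : A ⧸ I.asIdeal, a ^ 2 + e t I * a * b + b ^ 2 = e c I := by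
    intro I
    letI := Ideal.Quotient.field I.asIdeal
    haveI : Finite (A ⧸ I.asIdeal) := Finite.of_surjective _ Ideal.Quotient.mk_surjective
    have h1 : 4 * 1 - e t I ^ 2 ≠ 0 := fun h => by
      have := ((ht.map e).map (Pi.evalRingHom _ I)).ne_zero
      simp only [map_sub, map_pow, map_ofNat, Pi.evalRingHom_apply] at this
      exact this (by linear_combination -h)
    obtain ⟨v, hv⟩ := exists_Q_eq (nd_qBin' h1) (by simp) (e c I)
    exact ⟨v 0, v 1, by rw [← hv, qBin_apply, one_mul]⟩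
  choose a b h using h
  refine ⟨e.symm a, e.symm b, e.injective (funext fun I => ?_)⟩
  simpa using h I

variable {F V : Type*} [Field F] [AddCommGroup V] [Module F V] {Q : QuadraticForm F V}

theorem det_of_sim_alt [FiniteDimensional F V] {B : LinearMap.BilinForm F V} (hA : B.IsAlt)
    (hB : B.Nondegenerate) {c : End F V} {l : F} (hl : l ≠ 0) (h : ∀ u v, B (c u) (c v) = l * B u v)
    {k : ℕ} (hk : finrank F V = 2 * k) : LinearMap.det c = l ^ k := by
  obtain ⟨m, b, h1, h2, h3⟩ := Symp.exists_symplectic_basis hA hB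
  obtain rfl : m = k := by have := finrank_eq_card_basis b; simp at this; omega
  let d : Fin m ⊕ Fin m → F := Sum.elim (fun _ => l⁻¹) fun _ => 1
  let δ : End F V := b.constr F fun i => d i • b i
  have hδ : ∀ i, δ (b i) = d i • b i := fun i => b.constr_basis F _ i
  have h4 : LinearMap.det δ = l⁻¹ ^ m := by
    rw [← LinearMap.det_toMatrix b, show LinearMap.toMatrix b b δ = Matrix.diagonal d from by
      ext i j
      rw [LinearMap.toMatrix_apply, hδ, _root_.map_smul, Basis.repr_self, Finsupp.smul_apply,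
        Finsupp.single_apply, Matrix.diagonal_apply]
      by_cases e : i = j
      · simp [e]
      · simp [e, Ne.symm e], Matrix.det_diagonal]
    simp [d]
  have h5 : B.compl₁₂ (c * δ) (c * δ) = B := b.ext fun i => b.ext fun j => by
    simp only [LinearMap.compl₁₂_apply, End.mul_apply, h, hδ, _root_.map_smul, LinearMap.smul_apply,
      smul_eq_mul]
    rcases i with i | i <;> rcases j with j | j <;> simp [d, h2, h3] <;> field_simp
  have h6 := Symp.SpE.det_eq_one (f := c * δ) ⟨hA, hB, fun u v => LinearMap.congr_fun₂ h5 u v⟩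
  rw [map_mul, h4, inv_pow, mul_inv_eq_one₀ (pow_ne_zero _ hl)] at h6
  exact h6

/-- The self-adjoint endomorphism `x + x⁻¹`. -/
def O.tr (x : O Q) : End F V := (x.1 : End F V) + ((x⁻¹).1 : End F V)

theorem O.tr_apply (x : O Q) (v : V) : O.tr x v = x.1 v + (x⁻¹).1 v := rfl

theorem O.polar_aeval_tr (x : O Q) (p : F[X]) (u v : V) :
    polar Q (aeval (O.tr x) p u) v = polar Q u (aeval (O.tr x) p v) := by
  induction p using Polynomial.induction_on generalizing u v with
  | C a => simp [Algebra.algebraMap_eq_smul_one]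
  | add p q hp hq => simp [polar_add_left, polar_add_right, hp, hq]
  | monomial n a h =>
    have h1 : ∀ u v, polar Q (O.tr x u) v = polar Q u (O.tr x v) := fun u v => by
      rw [O.tr_apply, O.tr_apply, polar_add_left, polar_add_right, O.polar_left, O.polar_left,
        inv_inv, add_comm]
    have h2 := congrArg (aeval (O.tr x)) (mul_comm (C a * X ^ n) X)
    rw [map_mul, map_mul _ X, aeval_X] at h2
    rw [pow_succ, ← mul_assoc, map_mul, aeval_X, End.mul_apply, h, h1, ← End.mul_apply, h2]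

theorem O.apply_aeval_tr (x : O Q) (p : F[X]) (v : V) :
    x.1 (aeval (O.tr x) p v) = aeval (O.tr x) p (x.1 v) := by
  have : Commute (x.1 : End F V) (O.tr x) := LinearMap.ext fun v => by simp [O.tr_apply]
  exact LinearMap.congr_fun (Algebra.commute_of_mem_adjoin_singleton_of_commute
    (aeval_mem_adjoin_singleton F (O.tr x) (p := p)) this).eq v

theorem O.inv_apply_aeval_tr (x : O Q) (p : F[X]) (v : V) :
    (x⁻¹).1 (aeval (O.tr x) p v) = aeval (O.tr x) p ((x⁻¹).1 v) := by
  rw [O.inv_apply_eq, O.apply_aeval_tr, O.apply_inv_apply]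

theorem O.injective_tr_sq {x : O Q} (h : O.fix (x * x) = ⊥) {v : V}
    (hv : aeval (O.tr x) (X ^ 2 - 4 : F[X]) v = 0) : v = 0 := by
  have h1 : ∀ v, x.1 v - (x⁻¹).1 v = 0 → v = 0 := fun v hv => O.fix_eq_bot_iff.1 h v (by
    rw [O.mul_apply, sub_eq_zero.1 hv, O.apply_inv_apply])
  refine h1 _ (h1 _ ?_)
  rw [← hv]
  simp only [map_sub, map_mul, aeval_X, map_ofNat, pow_two, End.mul_apply, O.tr_apply, map_add,
    O.apply_inv_apply, O.inv_apply_apply, LinearMap.sub_apply, End.ofNat_apply, LinearEquiv.coe_coe]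
  abel

variable [FiniteDimensional F V]

theorem O.squarefree_minpoly_tr {x : O Q} {r : ℕ} (hr : (r : F) ≠ 0) (hx : x ^ r = 1) :
    Squarefree (minpoly F (O.tr x)) := by
  have h0 : r ≠ 0 := by rintro rfl; simp at hr
  have h1 : ∀ k : ℕ, (x.1 : End F V) ^ k = ((x ^ k).1 : End F V) := fun k => by
    induction k with
    | zero => rfl
    | succ k ih => rw [pow_succ, pow_succ, ih]; rfl
  have h2 : O.tr x = aeval (x.1 : End F V) (X + X ^ (r - 1) : F[X]) := by
    rw [map_add, map_pow, aeval_X, h1, O.tr, inv_eq_of_mul_eq_one_right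
      (show x * x ^ (r - 1) = 1 by rw [mul_pow_sub_one h0, hx])]
  rw [h2]
  refine (End.IsSemisimple.aeval (End.isSemisimple_of_squarefree_aeval_eq_zero
    (p := X ^ r - 1) (X_pow_sub_one_separable_iff.2 hr).squarefree ?_) _).minpoly_squarefree
  rw [map_sub, map_pow, aeval_X, h1, hx, map_one]
  exact sub_self _

variable [Finite F]

theorem exists_sim_of_fpf {x : O Q} {r : ℕ} (hr : (r : F) ≠ 0) (hx : x ^ r = 1)
    (h : O.fix (x * x) = ⊥) (l : F) : ∃ c : End F V,
      (∀ u v, polar Q (c u) (c v) = l * polar Q u v) ∧ ∀ v, x.1 (c v) = c (x.1 v) := by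
  set m := minpoly F (O.tr x)
  have hm : m.Monic := minpoly.monic (Algebra.IsIntegral.isIntegral _)
  haveI : Module.Finite F (AdjoinRoot m) := (AdjoinRoot.powerBasis' hm).finite
  haveI : Finite (AdjoinRoot m) := Module.finite_of_finite F
  haveI : IsReduced (AdjoinRoot m) := (Ideal.isRadical_iff_quotient_reduced _).1
    (isRadical_iff_span_singleton.1 (O.squarefree_minpoly_tr hr hx).isRadical)
  have h1 : IsUnit (AdjoinRoot.root m ^ 2 - 4) := by
    refine IsArtinianRing.isUnit_of_mem_nonZeroDivisors (mem_nonZeroDivisors_iff_left.2 fun z hz => ?_)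
    obtain ⟨p, rfl⟩ := AdjoinRoot.mk_surjective z
    have : m ∣ (X ^ 2 - 4) * p := AdjoinRoot.mk_eq_zero.1 (by simpa [map_ofNat] using hz)
    refine AdjoinRoot.mk_eq_zero.2 (minpoly.dvd _ _ (LinearMap.ext fun v => O.injective_tr_sq h ?_))
    rw [← End.mul_apply, ← map_mul, (minpoly.dvd_iff).1 this]; rfl
  obtain ⟨a, b, hab⟩ := exists_binary_eq h1 (algebraMap F _ l)
  obtain ⟨a, rfl⟩ := AdjoinRoot.mk_surjective a
  obtain ⟨b, rfl⟩ := AdjoinRoot.mk_surjective b
  have h2 : aeval (O.tr x) (a * a + a * (b * X) + b * b - C l) = 0 := (minpoly.dvd_iff).1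
    (AdjoinRoot.mk_eq_zero.1 (by
      simp only [map_sub, map_add, map_mul, AdjoinRoot.mk_X, AdjoinRoot.mk_C]
      rw [← AdjoinRoot.algebraMap_eq, ← hab]; ring))
  refine ⟨aeval (O.tr x) a + aeval (O.tr x) b * (x.1 : End F V), fun u v => ?_, fun v => ?_⟩
  · have h3 := LinearMap.congr_fun h2 v
    simp only [map_sub, map_add, map_mul, aeval_X, aeval_C, LinearMap.sub_apply, LinearMap.add_apply,
      End.mul_apply, O.tr_apply, Module.algebraMap_end_apply, LinearMap.zero_apply,
      sub_eq_zero] at h3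
    have h4 : ∀ w, aeval (O.tr x) b (aeval (O.tr x) a w) = aeval (O.tr x) a (aeval (O.tr x) b w) :=
      fun w => by rw [← End.mul_apply, ← map_mul, mul_comm, map_mul, End.mul_apply]
    simp only [LinearMap.add_apply, End.mul_apply, LinearEquiv.coe_coe, polar_add_left,
      O.polar_aeval_tr, O.polar_left, map_add, O.inv_apply_aeval_tr, O.inv_apply_apply, h4]
    rw [← polar_smul_right', ← h3]
    simp only [polar_add_right]
    ring
  · simp [O.apply_aeval_tr]

theorem exists_gam_of_fpf (hQ : ND Q) (h2 : (2 : F) ≠ 0) {x : O Q} {r : ℕ} (hr : (r : F) ≠ 0)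
    (hx : x ^ r = 1) (h : O.fix (x * x) = ⊥) (l : Fˣ) :
    ∃ g : Gam Q, g.σ = 1 ∧ g.c = l ∧ Commute g (ofO Q x) ∧ dl hQ g = 1 := by
  obtain ⟨c, h1, h3⟩ := exists_sim_of_fpf hr hx h (l : F)
  have hi : Function.Injective c := (injective_iff_map_eq_zero c).2 fun u hu => hQ.eq_zero fun v =>
    (mul_eq_zero.1 (by rw [← h1, hu, polar_zero_left])).resolve_left l.ne_zero
  obtain ⟨k, hk⟩ := (Symp.even_finrank (isAlt_altOf x) (nondegenerate_altOf hQ h)).two_dvd
  refine ⟨ofLin (LinearEquiv.ofInjectiveEndo c hi) l fun v => mul_left_cancel₀ h2 (by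
    rw [← polar_self', mul_left_comm, ← polar_self', ← h1]; rfl), rfl, rfl,
    ext' rfl (by simp) fun v => (h3 v).symm, (dl_eq_one_iff hQ h2 hk).2 ?_⟩
  rw [det_eq_of rfl (e := c) fun _ => rfl]
  refine det_of_sim_alt (isAlt_altOf x) (nondegenerate_altOf hQ h) l.ne_zero (fun u v => ?_) hk
  rw [altOf_apply, altOf_apply, ← h1, map_sub, h3, (O.inv_apply_eq x).2 (by
    rw [h3, O.apply_inv_apply] : c u = x.1 (c ((x⁻¹).1 u)))]

/-- A proper similarity of any multiplier centralizes a semisimple isometry of odd order. -/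
theorem exists_gam_commute (hQ : ND Q) (h2 : (2 : F) ≠ 0) (he : Even (finrank F V)) {x : O Q}
    {r : ℕ} (ho : Odd r) (hr : (r : F) ≠ 0) (hx : x ^ r = 1) (l : Fˣ) :
    ∃ g : Gam Q, g.σ = 1 ∧ g.c = l ∧ Commute g (ofO Q x) ∧ dl hQ g = 1 := by
  by_cases h0 : O.fix x = ⊥
  · exact exists_gam_of_fpf hQ h2 hr hx (by rwa [fix_mul_self_of_odd ho hx]) l
  have S := O.isOSum_comm_fix hr hx
  obtain ⟨a, b, hab⟩ := S.exists_split (Commute.refl x)
  obtain ⟨ha, rfl⟩ := S.of_sumMap_eq hab
  have har : a ^ r = 1 := (S.sumMap_eq_one.1 (by rw [← S.sumMap_pow, hab, hx])).1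
  obtain ⟨g₁, h1, h3, h4, -⟩ := exists_gam_of_fpf (S.nd_left hQ) h2 hr har
    (by rwa [fix_mul_self_of_odd ho har]) l
  have h5 := S.finrank_add
  obtain ⟨k, hk⟩ : Even (finrank F (O.fix x)) := by
    have := (dickson_eq_one_iff hQ).1 (dickson_of_odd hQ ho hx)
    rw [← h5, Nat.even_add] at he
    exact he.1 this
  obtain ⟨g₂, h6, h7, -⟩ := exists_sim_sq (S.nd_right hQ) h2 (k := k) (by omega) l
  let g := Gam.congr S.equiv one_ne_zero (fun v => by rw [S.map_equiv, one_mul])
    (Gam.prod g₁ g₂ (h6.trans h1.symm) (h7.trans h3.symm))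
  have hg : g.σ = 1 := h1
  have hc : g.c = l := Units.ext (by
    rw [congr_c, map_one, inv_one, one_mul, mul_one]; exact congrArg Units.val h3)
  have hx' : Commute g (ofO Q x) := ext' (by simp [hg]) (by simp [hg]) fun v => by
    obtain ⟨⟨w, u⟩, rfl⟩ := S.equiv.surjective v
    have e1 : ∀ w u, x.1 (S.equiv (w, u)) = S.equiv (a.1 w, u) := fun w u =>
      (congrArg (fun o : O Q => o.1 (S.equiv (w, u))) hab).symm.trans (S.sumMap_apply (a, 1) w u)
    have e2 : ∀ w u, g.T (S.equiv (w, u)) = S.equiv (g₁.T w, g₂.T u) := fun w u => congr_T' ..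
    rw [mul_T, mul_T, ofO_T, ofO_T, e1, e2, e2, e1]
    exact congrArg (fun w => S.equiv (w, _)) (congrArg (fun g : Gam _ => g.T w) h4)
  rcases Int.units_eq_one_or (dl hQ g) with h | h
  · exact ⟨g, hg, hc, hx', h⟩
  haveI := Submodule.nontrivial_iff_ne_bot.2 h0
  obtain ⟨v, hv⟩ := (S.nd_right hQ).exists_Q_ne
  refine ⟨g * ofO Q (refl Q v), by simp [hg], Units.ext (by simp [hc]), hx'.mul_left
    (Commute.map (Commute.symm ?_) _), ?_⟩
  · rw [commute_iff_eq, ← mul_inv_eq_iff_eq_mul, conj_refl, O.mem_fix.1 v.2]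
  · rw [dl_mul hQ he hg rfl, h, dl_ofO hQ he, dickson_refl hQ hv]; rfl

end Cfsg.Lib.Orth
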