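import Cfsg.Agent.Lib.Orth.Fus

/-!
# Fusion of semisimple classes of odd order in the conformal orthogonal group
-/

set_option autoImplicit false

namespace Cfsg.Lib.Orth

open QuadraticMap Module Polynomial Gam

theorem isConjUnder_iff_of_commute {A : Type*} [Group A] {H K : Subgroup A} (hKH : K ≤ H) {x : A}
    (h : ∀ h ∈ H, ∃ k ∈ K, Commute (k⁻¹ * h) x) (y : A) :
    Cfsg.IsConjUnder K x y ↔ Cfsg.IsConjUnder H x y := by
  refine ⟨fun ⟨k, hk, e⟩ => ⟨k, hKH hk, e⟩, fun ⟨g, hg, e⟩ => ?_⟩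
  obtain ⟨k, hk, hc⟩ := h g hg
  refine ⟨k, hk, ?_⟩
  rw [e, show g * x * g⁻¹ = k * (k⁻¹ * g * x * (k⁻¹ * g)⁻¹) * k⁻¹ by group, hc.eq,
    mul_inv_cancel_right]

variable {F V K : Type*} [Field F] [AddCommGroup V] [Module F V] [Field K]

theorem plane_of_tr {q : QuadraticForm F V} (h2 : (2 : F) ≠ 0) {x : O q} {θ : F}
    (hθ : ∀ v, x.1 v + (x⁻¹).1 v = θ • v) (h4 : θ ^ 2 - 4 ≠ 0) {w : V} (hw : q w ≠ 0) :
    ND (q.restrict (Submodule.span F {w, x.1 w})) ∧
      finrank F (Submodule.span F {w, x.1 w}) = 2 := by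
  have h1 : polar q w (x.1 w) = θ * q w := mul_left_cancel₀ h2 (by
    have := congrArg (polar q w) (hθ w)
    rw [polar_add_right, ← O.polar_left, polar_comm q (x.1 w), polar_smul_right',
      polar_self'] at this
    linear_combination this)
  have key : ∀ a b : F, polar q (a • w + b • x.1 w) w = 0 →
      polar q (a • w + b • x.1 w) (x.1 w) = 0 → a = 0 ∧ b = 0 := fun a b ha hb => by
    simp only [polar_add_left, polar_smul_left', polar_self', O.map_Q, polar_comm q (x.1 w) w,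
      h1] at ha hb
    exact ⟨(mul_eq_zero.1 (show a * ((θ ^ 2 - 4) * q w) = 0 by
        linear_combination θ * hb - 2 * ha)).resolve_right (mul_ne_zero h4 hw),
      (mul_eq_zero.1 (show b * ((θ ^ 2 - 4) * q w) = 0 by
        linear_combination θ * ha - 2 * hb)).resolve_right (mul_ne_zero h4 hw)⟩
  refine ⟨nd_restrict_iff.2 fun v hv hy => ?_, ?_⟩
  · obtain ⟨a, b, rfl⟩ := Submodule.mem_span_pair.1 hv
    obtain ⟨rfl, rfl⟩ := key a b (hy _ (Submodule.subset_span (by simp)))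
      (hy _ (Submodule.subset_span (by simp)))
    simp
  · have := finrank_span_eq_card (LinearIndependent.pair_iff.2 fun a b hab =>
      key a b (by rw [hab, polar_zero_left]) (by rw [hab, polar_zero_left]) :
        LinearIndependent F ![w, x.1 w])
    rwa [Matrix.range_cons_cons_empty, Fintype.card_fin] at this

variable [Finite F] [FiniteDimensional F V] {Q : QuadraticForm F V}

theorem exists_commute_spinor_ext [Algebra F K] [Module K V] [IsScalarTower F K V]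
    [Module.Finite F K] [Nontrivial V] (hQ : ND Q) (h2 : (2 : F) ≠ 0) {x : O Q} {r : ℕ}
    (ho : Odd r) (hx : x ^ r = 1) (hs : ∀ (κ : K) u v, polar Q (κ • u) v = polar Q u (κ • v))
    (hl : ∀ (κ : K) v, x.1 (κ • v) = κ • x.1 v) {θ : K} (hθ : ∀ v, x.1 v + (x⁻¹).1 v = θ • v)
    (h4 : θ ^ 2 - 4 ≠ 0) : ∃ o, Commute o x ∧ dickson hQ o = 1 ∧ spinor hQ o = -1 := by
  obtain ⟨τ, hτ⟩ : ∃ τ : K →ₗ[F] F, τ ≠ 0 := ⟨Algebra.trace F K, Algebra.trace_ne_zero F K⟩
  obtain ⟨q, hq, rfl⟩ := exists_eq_resScal hQ h2 hτ hs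
  haveI : Module.Finite K V := Module.Finite.of_restrictScalars_finite F K V
  have h2' : (2 : K) ≠ 0 := two_ne_zero_ext h2
  obtain ⟨y, rfl⟩ : ∃ y : O q, O.resScal τ q y = x := by
    refine ⟨⟨{ x.1 with map_smul' := hl }, fun v => mul_left_cancel₀ h2' ?_⟩, rfl⟩
    rw [← polar_self', ← polar_self']
    refine OMax.eq_of_coef hτ fun κ => ?_
    rw [← polar_smul_left', ← polar_smul_left', ← polar_resScal, ← polar_resScal]
    exact (congrArg (polar _ · _) (hl κ v).symm).trans (O.map_polar x _ _)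
  have hy : y ^ r = 1 := O.ext fun v => congrArg (fun o : O (resScal τ q) => o.1 v)
    ((map_pow _ y r).trans hx)
  obtain ⟨w, hw⟩ := hq.exists_Q_ne
  obtain ⟨hP, hP2⟩ := plane_of_tr h2' (x := y) hθ h4 hw
  obtain ⟨u, hu, u', hu', h5, h6, h7, h8⟩ := exists_res_refl_mul h2 hτ hQ hP hP2.ge
  refine ⟨_, Commute.map ?_ _, h7, h8⟩
  have S := isOSum_perp hP
  have h9 : ∀ v ∈ Submodule.span K {w, y.1 w}, y.1 v ∈ Submodule.span K {w, y.1 w} := by
    intro v hv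
    obtain ⟨a, b, rfl⟩ := Submodule.mem_span_pair.1 hv
    have := hθ (y.1 w)
    refine Submodule.mem_span_pair.2 ⟨-b, a + b * θ, ?_⟩
    rw [map_add, _root_.map_smul, _root_.map_smul, eq_sub_of_add_eq
      (show y.1 (y.1 w) + w = θ • y.1 w from (congrArg _ (O.inv_apply_apply y w).symm).trans this)]
    module
  obtain ⟨a, b, hab⟩ := S.exists_sumMap_eq h9 (O.mapsTo_perp h9)
  have ha := (S.sumMap_eq_one.1 (by rw [← S.sumMap_pow, hab, hy] : S.sumMap (a ^ r, b ^ r) = 1)).1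
  have hc := (Commute.prod (x := (refl _ ⟨u, hu⟩, 1) * (refl _ ⟨u', hu'⟩, 1)) (y := (a, b))
    (plane_comm hP hP2 (by
      rw [Prod.fst_mul, map_mul, dickson_refl hP (v := ⟨u, hu⟩) h5,
        dickson_refl hP (v := ⟨u', hu'⟩) h6]
      rfl) (dickson_of_odd hP ho ha)) (by simp)).map S.sumMap
  rwa [hab, map_mul, S.sumMap_refl_left, S.sumMap_refl_left] at hc

theorem exists_commute_spinor_irred [Nontrivial V] (hQ : ND Q) (h2 : (2 : F) ≠ 0) {x : O Q} {r : ℕ}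
    (ho : Odd r) (hx : x ^ r = 1) (h : O.fix x = ⊥) {g : F[X]} (hg : Irreducible g)
    (h0 : aeval (O.tr x) g = 0) : ∃ o, Commute o x ∧ dickson hQ o = 1 ∧ spinor hQ o = -1 := by
  haveI := Fact.mk hg
  let φ : AdjoinRoot g →+* End F V := Ideal.Quotient.lift _ (aeval (O.tr x)).toRingHom fun a ha => by
    obtain ⟨b, rfl⟩ := Ideal.mem_span_singleton'.1 ha
    simp [h0]
  have hφ : ∀ p, φ (AdjoinRoot.mk g p) = aeval (O.tr x) p := fun _ => rfl
  letI : Module (AdjoinRoot g) V := Module.compHom V φ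
  have hsm : ∀ p (v : V), AdjoinRoot.mk g p • v = aeval (O.tr x) p v := fun _ _ => rfl
  haveI : IsScalarTower F (AdjoinRoot g) V := ⟨fun a κ v => by
    obtain ⟨p, rfl⟩ := AdjoinRoot.mk_surjective κ
    rw [AdjoinRoot.smul_mk, hsm, hsm, _root_.map_smul, LinearMap.smul_apply]⟩
  haveI := (AdjoinRoot.powerBasis hg.ne_zero).finite
  refine exists_commute_spinor_ext (K := AdjoinRoot g) hQ h2 ho hx (fun κ u v => ?_) (fun κ v => ?_)
    (θ := AdjoinRoot.mk g X) (fun v => by rw [hsm, aeval_X]; rfl) fun h4 => ?_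
  · obtain ⟨p, rfl⟩ := AdjoinRoot.mk_surjective κ
    exact O.polar_aeval_tr x p u v
  · obtain ⟨p, rfl⟩ := AdjoinRoot.mk_surjective κ
    exact O.apply_aeval_tr x p v
  · obtain ⟨v, hv⟩ := exists_ne (0 : V)
    refine hv (O.injective_tr_sq (x := x) (by rwa [fix_mul_self_of_odd ho hx]) ?_)
    rw [← hsm, map_sub, map_pow, map_ofNat, h4, zero_smul]

theorem exists_commute_spinor_fpf [Nontrivial V] (hQ : ND Q) (h2 : (2 : F) ≠ 0) {x : O Q} {r : ℕ}
    (ho : Odd r) (hr : (r : F) ≠ 0) (hx : x ^ r = 1) (h : O.fix x = ⊥) :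
    ∃ o, Commute o x ∧ dickson hQ o = 1 ∧ spinor hQ o = -1 := by
  have hint : IsIntegral F (O.tr x) := Algebra.IsIntegral.isIntegral _
  obtain ⟨g, hg, k, hk⟩ := WfDvdMonoid.exists_irreducible_factor (minpoly.not_isUnit F (O.tr x))
    (minpoly.ne_zero hint)
  obtain ⟨a, b, hab⟩ : IsCoprime g k := isRelPrime_iff_isCoprime.1
    (IsRelPrime.of_squarefree_mul (hk ▸ O.squarefree_minpoly_tr hr hx))
  let W := LinearMap.ker (aeval (O.tr x) g)
  have hW : ∀ v, aeval (O.tr x) (b * k) v ∈ W := fun v => by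
    rw [LinearMap.mem_ker, ← End.mul_apply, ← map_mul, mul_left_comm, ← hk, map_mul, minpoly.aeval,
      mul_zero, LinearMap.zero_apply]
  have hnd : ND (Q.restrict W) := nd_restrict_iff.2 fun w hw h1 => hQ.eq_zero fun v => by
    have := LinearMap.congr_fun (congrArg (aeval (O.tr x)) hab) v
    rw [map_one, End.one_apply, map_add, LinearMap.add_apply] at this
    rw [← this, polar_add_right, h1 _ (hW v), ← O.polar_aeval_tr, map_mul, End.mul_apply,
      LinearMap.mem_ker.1 hw, map_zero, polar_zero_left, add_zero]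
  have h9 : ∀ w ∈ W, x.1 w ∈ W := fun w hw => by
    rw [LinearMap.mem_ker, ← O.apply_aeval_tr, LinearMap.mem_ker.1 hw, map_zero]
  have S := isOSum_perp hnd
  obtain ⟨y, z, hyz⟩ := S.exists_sumMap_eq h9 (O.mapsTo_perp h9)
  have hy : ∀ w : W, (y.1 w : V) = x.1 w := fun w => by rw [← S.sumMap_left (y, z), hyz]
  have hy' : ∀ w : W, ((y⁻¹).1 w : V) = (x⁻¹).1 w := fun w => by
    rw [eq_comm, O.inv_apply_eq, ← hy, O.apply_inv_apply]
  have hyp : ∀ (p : F[X]) (w : W), (aeval (O.tr y) p w : V) = aeval (O.tr x) p w := fun p => by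
    induction p using Polynomial.induction_on with
    | C a => simp [Algebra.algebraMap_eq_smul_one]
    | add p q hp hq => simp [hp, hq]
    | monomial n a h =>
      intro w
      rw [pow_succ, ← mul_assoc, map_mul, map_mul _ _ X, aeval_X, aeval_X, End.mul_apply,
        End.mul_apply, h, O.tr_apply, O.tr_apply, Submodule.coe_add, hy, hy']
  haveI : Nontrivial W := Submodule.nontrivial_iff_ne_bot.2 fun h0 => by
    have h1 : aeval (O.tr x) k = 0 := LinearMap.ext fun v => (Submodule.eq_bot_iff _).1 h0 _ (by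
      rw [LinearMap.mem_ker, ← End.mul_apply, ← map_mul, ← hk, minpoly.aeval, LinearMap.zero_apply])
    have h3 : g * k ∣ 1 * k := by rw [← hk, one_mul]; exact minpoly.dvd _ _ h1
    exact hg.not_isUnit (isUnit_of_dvd_one ((mul_dvd_mul_iff_right
      (right_ne_zero_of_mul (hk ▸ minpoly.ne_zero hint))).1 h3))
  obtain ⟨o, h1, h3, h4⟩ := exists_commute_spinor_irred hnd h2 (x := y) ho
    (S.sumMap_eq_one.1 (by rw [← S.sumMap_pow, hyz, hx])).1
    (O.fix_eq_bot_iff.2 fun v hv => Subtype.ext (O.fix_eq_bot_iff.1 h _ (by rw [← hy, hv]))) hg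
    (LinearMap.ext fun w => Subtype.ext ((hyp g w).trans w.2))
  refine ⟨S.sumMap (o, 1), hyz ▸ Commute.map (x := (o, 1)) (y := (y, z))
    (Commute.prod h1 (Commute.one_left z)) _, ?_, ?_⟩
  · rw [S.dickson_sumMap hQ, h3, map_one, mul_one]
  · rw [S.spinor_sumMap hQ, h4, map_one, mul_one]

theorem exists_refl_mul_spinor (hQ : ND Q) (h2 : (2 : F) ≠ 0) {U : Submodule F V}
    (hU : ND (Q.restrict U)) (hn : 2 ≤ finrank F U) : ∃ u ∈ U, ∃ u' ∈ U,
      dickson hQ (refl Q u * refl Q u') = 1 ∧ spinor hQ (refl Q u * refl Q u') = -1 := by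
  obtain ⟨u, h1, hu⟩ := exists_sqsign_eq hU h2 hn 1
  obtain ⟨u', h3, hu'⟩ := exists_sqsign_eq hU h2 hn (-1)
  refine ⟨u, u.2, u', u'.2, ?_, ?_⟩
  · rw [map_mul, dickson_refl hQ (v := u) h1, dickson_refl hQ (v := u') h3]; rfl
  · rw [map_mul, spinor_refl hQ (v := u) h1, spinor_refl hQ (v := u') h3]
    exact (congrArg₂ _ hu hu').trans (one_mul _)

theorem commute_refl_of_fix {x : O Q} {v : V} (hv : x.1 v = v ∨ x.1 v = -v) :
    Commute (refl Q v) x := by
  rw [commute_iff_eq, eq_comm, ← mul_inv_eq_iff_eq_mul, conj_refl]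
  rcases hv with h | h <;> rw [h]
  exact refl_neg v

theorem exists_commute_spinor [Nontrivial V] (hQ : ND Q) (h2 : (2 : F) ≠ 0) (he : Even (finrank F V))
    {x : O Q} {r : ℕ} (ho : Odd r) (hr : (r : F) ≠ 0) (hx : x ^ r = 1) :
    ∃ o, Commute o x ∧ dickson hQ o = 1 ∧ spinor hQ o = -1 := by
  by_cases h0 : O.fix x = ⊥
  · exact exists_commute_spinor_fpf hQ h2 ho hr hx h0
  have S := O.isOSum_comm_fix hr hx
  obtain ⟨k, hk⟩ : Even (finrank F (O.fix x)) := by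
    rw [← S.finrank_add, Nat.even_add] at he
    exact he.1 ((dickson_eq_one_iff hQ).1 (dickson_of_odd hQ ho hx))
  have := Submodule.finrank_eq_zero.not.2 h0
  obtain ⟨u, hu, u', hu', h⟩ := exists_refl_mul_spinor hQ h2 (S.nd_right hQ) (by omega)
  exact ⟨_, (commute_refl_of_fix (.inl (O.mem_fix.1 hu))).mul_left
    (commute_refl_of_fix (.inl (O.mem_fix.1 hu'))), h⟩

omit [FiniteDimensional F V] in
theorem exists_lift_odd [Nontrivial V] {A : Type*} [Group A] {ρ : Gam Q →* A}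
    (hρ : ρ.ker = (scal Q).range) {x : A} (hx : x ∈ (GO Q).map ρ) {r : ℕ} (ho : Odd r)
    (hr : x ^ r = 1) : ∃ o : O Q, o ^ r = 1 ∧ ρ (ofO Q o) = x := by
  obtain ⟨g, hg, rfl⟩ := hx
  have h0 : ∀ s, ρ (scal Q s) = 1 := fun s => MonoidHom.mem_ker.1 (hρ ▸ ⟨s, rfl⟩)
  have h1 : ∀ g, ρ g ^ r = 1 → ∃ s, scal Q s = g ^ r := fun g h => by
    rwa [← map_pow, ← MonoidHom.mem_ker, hρ] at h
  obtain ⟨s, hs⟩ := h1 g hr
  obtain ⟨t, o, rfl⟩ := exists_eq_scal_mul_of_mu hg (by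
    have := congrArg (mu Q) hs
    rw [mu_scal, map_pow] at this
    rcases Int.units_eq_one_or (mu Q g) with h | h
    · exact h
    · rw [h, ho.neg_one_pow] at this; exact absurd this (by decide))
  rw [map_mul, h0, one_mul] at hr ⊢
  obtain ⟨s, hs⟩ := h1 _ hr
  rw [← map_pow] at hs
  have h3 : (s : F) ^ 2 = 1 := congrArg (fun g : Gam Q => (g.c : F)) hs
  obtain rfl | rfl : s = 1 ∨ s = -1 := (sq_eq_one_iff.1 h3).imp Units.ext Units.ext
  · exact ⟨o, ofO_injective (by rw [← hs, map_one, map_one]), rfl⟩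
  · refine ⟨O.neg Q * o, ofO_injective ?_, by rw [map_mul, map_mul, ofO_neg, h0, one_mul]⟩
    rw [map_pow, map_mul, ofO_neg, (commute_scal rfl _).mul_pow, ← map_pow, ← map_pow, ← hs,
      ho.neg_one_pow, ← map_mul, _root_.neg_mul_neg, mul_one, map_one, map_one]

/-- Fusion of classes of semisimple elements of odd order. -/
theorem fusion_of_odd [Nontrivial V] (hQ : ND Q) (h2 : (2 : F) ≠ 0) (he : Even (finrank F V))
    {A : Type*} [Group A] {ρ : Gam Q →* A} (hρ : ρ.ker = (scal Q).range) {x : A}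
    (hx : x ∈ (GO Q).map ρ) {r : ℕ} (ho : Odd r) (hr : (r : F) ≠ 0) (hxr : x ^ r = 1) :
    (∀ y, (Cfsg.IsConjUnder ((ZOm Q).map ρ) x y ↔ Cfsg.IsConjUnder ((GOz hQ he).map ρ) x y) ∧
      (Cfsg.IsConjUnder ((ZSO hQ).map ρ) x y ↔ Cfsg.IsConjUnder ((GOz hQ he).map ρ) x y)) ∧
    ∀ y, Cfsg.IsConjUnder ((ofO Q).range.map ρ) x y ↔ Cfsg.IsConjUnder ((GO Q).map ρ) x y := by
  obtain ⟨x, hx1, rfl⟩ := exists_lift_odd hρ hx ho hxr
  have h1 : ∀ h : Gam Q, h.σ = 1 → ∃ o g, h = ofO Q o * g ∧ Commute g (ofO Q x) ∧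
      dickson hQ o = dl hQ h := fun h hh => by
    obtain ⟨g, h3, h4, h5, h6⟩ := exists_gam_commute hQ h2 he ho hr hx1 h.c
    obtain ⟨o, ho⟩ : h * g⁻¹ ∈ (ofO Q).range := mem_range_ofO.2 ⟨by simp [hh, h3], Units.ext (by
      simp [inv_c, hh, h3, h4])⟩
    refine ⟨o, g, by rw [ho, inv_mul_cancel_right], h5, ?_⟩
    rw [← dl_ofO hQ he, ho, dl_mul hQ he hh (by simp [h3]), dl_inv hQ he h3, h6, mul_one]
  have h3 : ∀ h ∈ (GOz hQ he).map ρ, ∃ k ∈ (ZOm Q).map ρ, Commute (k⁻¹ * h) (ρ (ofO Q x)) := by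
    rintro _ ⟨h, hh, rfl⟩
    obtain ⟨o, g, rfl, h4, h5⟩ := h1 h (mem_GOz.1 hh).1
    rw [(mem_GOz.1 hh).2] at h5
    have h6 : ∀ o, dickson hQ o = 1 → spinor hQ o = 1 → ρ (ofO Q o) ∈ (ZOm Q).map ρ :=
      fun o h h' => ⟨_, mem_ZOm.2 ⟨1, o, (mem_commutator_iff hQ (not_exc_of_two_ne_zero h2) o).2
        ⟨h, h'⟩, by simp⟩, rfl⟩
    rcases Int.units_eq_one_or (spinor hQ o) with h7 | h7
    · exact ⟨_, h6 o h5 h7, by simpa using h4.map ρ⟩
    obtain ⟨o', h8, h9, h10⟩ := exists_commute_spinor hQ h2 he ho hr hx1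
    refine ⟨_, h6 (o * o'⁻¹) (by simp [h5, h9]) (by simp [h7, h10]), ?_⟩
    simpa [mul_assoc] using ((h8.map (ofO Q)).mul_left h4).map ρ
  refine ⟨fun y => ⟨isConjUnder_iff_of_commute (Subgroup.map_mono (ZOm_le_GOz hQ he)) h3 y,
    isConjUnder_iff_of_commute (Subgroup.map_mono fun g hg => ?_) (fun h hh => ?_) y⟩,
    isConjUnder_iff_of_commute (Subgroup.map_mono ?_) ?_⟩
  · exact mem_GOz.2 ⟨((mem_ZSO_iff he).1 hg).1, ((mem_ZSO_iff he).1 hg).2.2⟩
  · obtain ⟨k, hk, e⟩ := h3 h hh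
    exact ⟨k, Subgroup.map_mono (ZOm_le_ZSO hQ) hk, e⟩
  · rintro _ ⟨o, rfl⟩; rfl
  · rintro _ ⟨h, hh, rfl⟩
    obtain ⟨o, g, rfl, h4, -⟩ := h1 h hh
    exact ⟨_, ⟨_, ⟨o, rfl⟩, rfl⟩, by simpa using h4.map ρ⟩

end Cfsg.Lib.Orth
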