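import Cfsg.Agent.Lib.Orth.Fus2
import Cfsg.Agent.Lib.Orth.Balance
import Cfsg.Agent.Lib.Bal.Orth
import Cfsg.Agent.Lib.Unitary.Split

/-!
# Splitting of classes of involutory graph automorphisms of even-dimensional orthogonal groups
-/

set_option autoImplicit false

namespace Cfsg.Lib.Orth

open QuadraticMap Module Gam

variable {F V A : Type*} [Field F] [AddCommGroup V] [Module F V] {Q : QuadraticForm F V} [Group A]
  {ρ : Gam Q →* A} [Finite F] [FiniteDimensional F V]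

omit [Finite F] [FiniteDimensional F V] in
theorem O.apply_of_mem_comm_invol {o : O Q} (ho : o * o = 1) {w : V} (hw : w ∈ O.comm o) :
    o.1 w = -w := by
  have hoo : ∀ v, o.1 (o.1 v) = v := fun v => congrArg (fun o : O Q => o.1 v) ho
  obtain ⟨y, rfl⟩ := O.mem_comm.1 hw
  simp [hoo]

theorem graph_cases (hQ : ND Q) (h2 : (2 : F) ≠ 0) {k : ℕ} (hk : finrank F V = 2 * k) (h0 : 0 < k)
    {g : Gam Q} (hg : g.σ = 1) (hd : dl hQ g = -1) {l : Fˣ} (hl : g * g = scal Q l) :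
    (∃ s o, g = scal Q s * ofO Q o ∧ o * o = 1 ∧ Odd (finrank F (O.comm o)) ∧
      Odd (finrank F (O.fix o))) ∨ (g.c = l ∧ ¬ IsSquare (l : F) ∧ Odd k) := by
  haveI : Nontrivial V := nontrivial_of_finrank_pos (R := F) (by omega)
  have he : Even (finrank F V) := ⟨k, by omega⟩
  have hc : (g.c : F) = l ∨ (g.c : F) = -l := sq_eq_sq_iff_eq_or_eq_neg.1 (by
    simpa [hg, pow_two] using congrArg (fun g : Gam Q => (g.c : F)) hl)
  by_cases hn : IsSquare (l : F)
  swap
  · haveI : Fact (∀ r : F, r ^ 2 ≠ l + 0 * r) := ⟨fun r h => hn ⟨r, by linear_combination -h⟩⟩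
    obtain ⟨_, _, -, h3, h4⟩ := Bal.exists_ext hg hl
    have h5 : ¬ g.det = (g.c : F) ^ _ := fun h => by
      rw [(dl_eq_one_iff hQ h2 h3).2 h] at hd
      exact absurd hd (by decide)
    have h6 := hc.resolve_right fun hc => h5 (hc ▸ h4)
    refine .inr ⟨Units.ext h6, hn, Nat.not_even_iff_odd.1 fun h => h5 ?_⟩
    rw [h4, h6, Even.neg_pow (by rwa [show finrank (QuadraticAlgebra F (l : F) 0) V = k by omega])]
  obtain ⟨s, hs'⟩ := hn
  have hgg : ∀ v, g.T (g.T v) = (s * s) • v := fun v => by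
    simpa [hs'] using congrArg (fun g : Gam Q => g.T v) hl
  have hs0 : s ≠ 0 := by rintro rfl; exact l.ne_zero (by simpa using hs')
  rcases hc with hc | hc
  swap
  · have ts : ∀ t, t * t = s * s → TS Q (End.eigenspace (g.lin hg : V →ₗ[F] V) t) := fun t ht v hv => by
      have := map_Q' hg v
      rw [show g.T v = t • v from End.mem_eigenspace_iff.1 hv, QuadraticMap.map_smul, hc, hs', ht,
        smul_eq_mul] at this
      exact mul_left_cancel₀ (mul_ne_zero h2 (mul_ne_zero hs0 hs0)) (by linear_combination this)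
    have h3 := (ts s rfl).two_mul_finrank_le hQ
    have h4 := ((ts (-s) (by ring)).mono (W' := LinearMap.range ((g.lin hg : V →ₗ[F] V) -
      s • 1)) (by
        rintro _ ⟨v, rfl⟩
        simp [map_smul' hg, hgg, smul_sub, smul_smul, neg_add_eq_sub])).two_mul_finrank_le hQ
    have h5 := LinearMap.finrank_range_add_finrank_ker ((g.lin hg : V →ₗ[F] V) - s • 1)
    rw [← End.eigenspace_def] at h5
    have hU : Lag Q _ := ⟨ts s rfl, by omega⟩
    rw [dl_eq_lsign hQ hU hg, lsign_of_mapSub_eq hQ hU hU (Submodule.eq_of_le_of_finrank_eq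
      (fun v hv => ?_) (finrank_mapSub ..))] at hd
    · exact absurd hd (by decide)
    obtain ⟨u, hu, rfl⟩ := mem_mapSub'.1 hv
    exact (show g.T u = s • u from End.mem_eigenspace_iff.1 hu) ▸ Submodule.smul_mem _ _ hu
  obtain ⟨o, rfl⟩ := exists_eq_scal_mul hg (s := Units.mk0 s hs0)
    (Units.ext (by simp [hc, hs', pow_two]))
  have ho2 : o * o = 1 := O.ext fun v => smul_right_injective V (mul_ne_zero hs0 hs0) (by
    simpa [smul_smul] using hgg v)
  rw [dl_scal_mul_ofO hQ he, dickson_apply] at hd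
  have h3 := (O.isOSum_comm_fix (x := o) (k := 2) (by simpa) (by rw [pow_two, ho2])).finrank_add
  have hX : Odd (finrank F (O.comm o)) := Nat.not_even_iff_odd.1 fun h => by
    rw [h.neg_one_pow] at hd; exact absurd hd (by decide)
  exact .inl ⟨_, o, rfl, ho2, hX, by obtain ⟨a, ha⟩ := hX; exact ⟨k - a - 1, by omega⟩⟩

theorem exists_commute_spinor_graph (hQ : ND Q) (h2 : (2 : F) ≠ 0) {k : ℕ}
    (hk : finrank F V = 2 * k) (h0 : 2 ≤ k) {g : Gam Q} (hg : g.σ = 1) (hd : dl hQ g = -1) {l : Fˣ}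
    (hl : g * g = scal Q l) :
    ∃ o, Commute (ofO Q o) g ∧ dickson hQ o = 1 ∧ spinor hQ o = -1 := by
  rcases graph_cases hQ h2 hk (by omega) hg hd hl with ⟨s, o, rfl, ho, -, -⟩ | ⟨hc, hn, -⟩
  · have S := O.isOSum_comm_fix (x := o) (k := 2) (by simpa) (by rw [pow_two, ho])
    have h3 := S.finrank_add
    suffices h : ∃ o', Commute o' o ∧ dickson hQ o' = 1 ∧ spinor hQ o' = -1 from
      h.imp fun o' h => ⟨(commute_scal rfl s).symm.mul_right (h.1.map _), h.2⟩
    by_cases h4 : 2 ≤ finrank F (O.fix o)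
    · obtain ⟨u, hu, u', hu', h⟩ := exists_refl_mul_spinor hQ h2 (S.nd_right hQ) h4
      exact ⟨_, (commute_refl_of_fix (.inl (O.mem_fix.1 hu))).mul_left
        (commute_refl_of_fix (.inl (O.mem_fix.1 hu'))), h⟩
    · obtain ⟨u, hu, u', hu', h⟩ := exists_refl_mul_spinor hQ h2 (S.nd_left hQ) (by omega)
      exact ⟨_, (commute_refl_of_fix (.inr (O.apply_of_mem_comm_invol ho hu))).mul_left
        (commute_refl_of_fix (.inr (O.apply_of_mem_comm_invol ho hu'))), h⟩
  haveI : Fact (∀ r : F, r ^ 2 ≠ l + 0 * r) := ⟨fun r h => hn ⟨r, by linear_combination -h⟩⟩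
  obtain ⟨_, _, hK, h3, -⟩ := Bal.exists_ext hg hl
  have hgg : ∀ v, g.T (g.T v) = (l : F) • v := fun v => congrArg (fun g : Gam Q => g.T v) hl
  have hsa : ∀ u v, polar Q (g.T u) v = polar Q u (g.T v) := fun u v =>
    mul_left_cancel₀ l.ne_zero (by
      rw [← polar_smul_right', ← hgg, map_polar, hc, hg]; rfl)
  have hτ := Algebra.trace_ne_zero F (QuadraticAlgebra F (l : F) 0)
  obtain ⟨q, hq, hqQ⟩ := exists_eq_resScal hQ h2 hτ fun κ u v => by
    simp [hK, polar_add_left, polar_add_right, hsa]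
  subst hqQ
  obtain ⟨w, -, w', -, -, -, h⟩ := exists_res_refl_mul h2 hτ hQ (P := ⊤)
    (nd_restrict_iff.2 fun x _ h => hq.eq_zero fun y => h y trivial) (by rw [finrank_top]; omega)
  haveI : Nontrivial V := nontrivial_of_finrank_pos (R := F) (by omega)
  refine ⟨_, ext_T hQ fun v => ?_, h⟩
  simpa [hK, O.resScal_apply] using (refl q w * refl q w').1.map_smul QuadraticAlgebra.omega v

theorem mu_eq_one_of_commute_graph (hQ : ND Q) (h2 : (2 : F) ≠ 0) (he : Even (finrank F V)) {k : ℕ}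
    (hk : finrank F V = 2 * k) (h0 : 0 < k) {g : Gam Q} (hg : g.σ = 1) (hd : dl hQ g = -1) {l : Fˣ}
    (hl : g * g = scal Q l) (hP : Even k ∨ O.neg Q ∈ commutator (O Q)) {h : Gam Q}
    (hh : h ∈ GOz hQ he) {t : Fˣ} (ht : h * g * h⁻¹ = scal Q t * g) : mu Q h = 1 := by
  haveI : Nontrivial V := nontrivial_of_finrank_pos (R := F) (by omega)
  have hE := not_exc_of_two_ne_zero (Q := Q) h2
  rcases hP with hP | hP
  swap
  · refine (Int.units_eq_one_or _).resolve_right fun hμ => ?_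
    obtain ⟨v, hv⟩ := hQ.exists_Q_ne
    have h3 : Commute (out Q h) (out Q g) := by
      rw [commute_iff_eq, ← mul_inv_eq_iff_eq_mul, ← map_inv, ← map_mul, ← map_mul, ht, map_mul,
        out_scal, one_mul]
    have h4 := commute_out_of_mem_GOz hQ hE he hh (h := ofO Q (refl Q v) * g) (mem_GOz.2
      ⟨by simp [hg], by rw [dl_mul hQ he rfl hg, dl_ofO hQ he, dickson_refl hQ hv, hd]; rfl⟩)
    have h5 := h4.mul_right h3.inv_right
    rw [map_mul, mul_inv_cancel_right] at h5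
    refine commutator_refl_ne_one hQ hE hP hμ hv ?_
    rw [h5.eq, mul_inv_cancel_right, out_ofO_mul_self hQ hE]
  rcases graph_cases hQ h2 hk h0 hg hd hl with ⟨s, o, rfl, ho, hX, hY⟩ | ⟨-, -, h⟩
  swap
  · exact absurd hP (Nat.not_even_iff_odd.2 h)
  have h1 := (mem_GOz.1 hh).1
  have S := O.isOSum_comm_fix (x := o) (k := 2) (by simpa) (by rw [pow_two, ho])
  have h3 : ∀ v, h.T (o.1 v) = (t : F) • o.1 (h.T v) := fun v =>
    smul_right_injective V s.ne_zero (by
      simpa [map_smul' h1, smul_comm (t : F)] using congrArg (fun g : Gam Q => g.T (h.T v)) ht)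
  have h4 : (t : F) ^ 2 = 1 := by
    have := congrArg (fun g : Gam Q => (g.c : F)) ht
    simp only [mul_c, inv_c, h1, mul_σ, scal_σ, ofO_σ, ofO_c, scal_c] at this
    have hs := s.ne_zero
    have hc := h.c.ne_zero
    simp at this
    field_simp at this
    exact this.symm
  haveI : Finite V := Module.finite_of_finite F
  rcases sq_eq_one_iff.1 h4 with e | e
  · exact sqsign_eq_one_iff.2 (isSquare_c_of_odd (S.nd_right hQ) hY (g := Bal.gamRes h _ fun w hw =>
      O.mem_fix.2 (by rw [← one_smul F (o.1 _), ← e, ← h3, O.mem_fix.1 hw])) h1)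
  exfalso
  have h5 : ∀ v, o.1 v = -v → v ∈ O.comm o := fun v hv => by
    have := (O.comm o).smul_mem (-2⁻¹) (O.sub_mem_comm o v)
    rwa [hv, ← neg_add', ← two_smul F, smul_neg, smul_smul, ← neg_smul, neg_mul, neg_neg,
      inv_mul_cancel₀ h2, one_smul] at this
  have h6 : h.mapSub (O.fix o) ≤ O.comm o := fun v hv => by
    obtain ⟨u, hu, rfl⟩ := mem_mapSub'.1 hv
    refine h5 _ (eq_neg_iff_add_eq_zero.2 ?_)
    have := h3 u
    rw [O.mem_fix.1 hu, e, neg_one_smul] at this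
    exact (congrArg _ this).trans (add_neg_cancel _)
  have h7 : h.mapSub (O.comm o) ≤ O.fix o := fun v hv => by
    obtain ⟨u, hu, rfl⟩ := mem_mapSub'.1 hv
    have := h3 u
    rw [O.apply_of_mem_comm_invol ho hu, e, neg_one_smul, map_neg, neg_inj] at this
    exact O.mem_fix.2 this.symm
  have h8 := Submodule.finrank_mono h6
  have h9 := Submodule.finrank_mono h7
  rw [finrank_mapSub] at h8 h9
  have := S.finrank_add
  exact Nat.not_even_iff_odd.2 hX (by rwa [show finrank F (O.comm o) = k by omega])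

/-- The splitting of the class of an involutory graph automorphism. -/
theorem split_graph (hQ : ND Q) (h2 : (2 : F) ≠ 0) (he : Even (finrank F V)) {k : ℕ}
    (hk : finrank F V = 2 * k) (h0 : 2 ≤ k) (hρ : ρ.ker = (scal Q).range) [((ZOm Q).map ρ).Normal]
    {g : Gam Q} (hg : g.σ = 1) (hd : dl hQ g = -1) (ho : ρ g ^ 2 = 1) :
    (Cfsg.splitClassCount ((GOz hQ he).map ρ) ((ZOm Q).map ρ) (ρ g) = 1 ∨
      Cfsg.splitClassCount ((GOz hQ he).map ρ) ((ZOm Q).map ρ) (ρ g) = 2) ∧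
    (Even k ∨ O.neg Q ∈ commutator (O Q) →
      Cfsg.splitClassCount ((GOz hQ he).map ρ) ((ZOm Q).map ρ) (ρ g) = 2) := by
  obtain ⟨l, hl⟩ := hρ.le (show ρ (g * g) = 1 by rw [map_mul, ← pow_two, ho])
  rw [Unitary.splitClassCount_eq _ _ (Subgroup.map_mono (ZOm_le_GOz hQ he))]
  have h1 : ((ZSO hQ).map ρ).relIndex ((GOz hQ he).map ρ) = 2 := by
    rw [((hasQuot_GOz_ZSO hQ h2 he (by omega)).map ρ (hρ ▸ le_sup_left)).relIndex_eq]; simp
  have h3 : (ZSO hQ).map ρ ≤
      (ZOm Q).map ρ ⊔ (GOz hQ he).map ρ ⊓ Subgroup.centralizer {ρ g} := by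
    rintro _ ⟨z, hz, rfl⟩
    obtain ⟨s, o, h4, rfl⟩ := mem_ZSO.1 hz
    have h6 : ∀ o, dickson hQ o = 1 → spinor hQ o = 1 → ρ (scal Q s * ofO Q o) ∈ (ZOm Q).map ρ :=
      fun o h h' => ⟨_, mem_ZOm.2 ⟨s, o, (mem_commutator_iff hQ (not_exc_of_two_ne_zero h2) o).2
        ⟨h, h'⟩, rfl⟩, rfl⟩
    rcases Int.units_eq_one_or (spinor hQ o) with h7 | h7
    · exact Subgroup.mem_sup_left (h6 o h4 h7)
    obtain ⟨o', h8, h9, h10⟩ := exists_commute_spinor_graph hQ h2 hk h0 hg hd hl.symm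
    have := Subgroup.mul_mem_sup (h6 (o * o'⁻¹) (by simp [h4, h9]) (by simp [h7, h10]))
      (show ρ (ofO Q o') ∈ (GOz hQ he).map ρ ⊓ Subgroup.centralizer {ρ g} from
        ⟨⟨_, ofO_mem_GOz.2 h9, rfl⟩, Subgroup.mem_centralizer_singleton_iff.2 (h8.map ρ)⟩)
    rwa [← map_mul, mul_assoc, ← map_mul, inv_mul_cancel_right] at this
  refine ⟨(Nat.dvd_prime Nat.prime_two).1 (h1 ▸ Subgroup.relIndex_dvd_of_le_left _ h3), fun hP => ?_⟩
  rw [← h1, le_antisymm (sup_le (Subgroup.map_mono (ZOm_le_ZSO hQ)) ?_) h3]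
  rintro _ ⟨⟨h, hh, rfl⟩, hc⟩
  obtain ⟨t, ht⟩ := Bal.conj_eq_of_commute hρ (Subgroup.mem_centralizer_singleton_iff.1 hc)
  exact ⟨h, mem_ZSO_of_mu hh
    (mu_eq_one_of_commute_graph hQ h2 he hk (by omega) hg hd hl.symm hP hh ht), rfl⟩

theorem σ_eq_one_of_minus (hQ : ND Q) {m : ℕ} (hV : finrank F V = 2 * m + 2) (hs : osign Q = -1)
    (hρ : ρ.ker = (scal Q).range) {g : Gam Q} (ho : orderOf (ρ g) = 2) : g.σ = 1 := by
  by_contra hσ
  haveI : Nontrivial V := nontrivial_of_finrank_pos (R := F) (by omega)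
  obtain ⟨ψ, -, -, h1, h3⟩ := exists_pow_eq_one_of_rho hρ ho hσ
  obtain ⟨ζ, hζ⟩ := exists_aniso_one (Linear.fixField ψ.σ)
  rcases nonempty_formData_even hQ hV h3 (mem_range_fixField ψ.σ) hζ with ⟨⟨D⟩⟩ | ⟨⟨D⟩⟩
  · rw [← osign_sim D.e D.hc D.Q'_plus, osign_qPlus] at hs
    exact absurd hs (by decide)
  · rw [← osign_sim D.e D.hc D.Q'_minus, osign_qMinus_of_not_aniso] at hs
    · exact absurd hs (by decide)
    · have := (map_ne_zero (Linear.fixField ψ.σ).subtype).2
        (disc_ne_zero_of_anisotropic hζ)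
      rwa [map_sub, map_mul, map_ofNat, map_pow] at this
    · exact not_aniso_of_even (F := Linear.fixField ψ.σ) (K := F)
        (by rw [Linear.finrank_fixField (orderOf_pos _), h1]; exact even_two) 1 ζ

end Cfsg.Lib.Orth
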